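import Cfsg.Agent.H11.SRank

/-! Coordinates for a natural section of an extension of a 2-group by `GL(3,2)`. -/

set_option autoImplicit false

namespace Cfsg.Agent.L32

open Matrix

variable {X : Type*} [Group X]

/-- `B / A` is a natural module for `X / ker θ = GL(3,2)`, with coordinates `ρ`. -/
structure Co (θ : X →* GL (Fin 3) (ZMod 2)) (ρ : X → Fin 3 → ZMod 2) (A B : Subgroup X) : Prop where
  surj : Function.Surjective θ
  two : IsPGroup 2 θ.ker
  nA : A.Normal
  nB : B.Normal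
  le : A ≤ B
  leQ : B ≤ θ.ker
  add : ∀ a ∈ B, ∀ b ∈ B, ρ (a * b) = ρ a + ρ b
  zero : ∀ b ∈ B, ρ b = 0 ↔ b ∈ A
  onto : ∀ y, ∃ b ∈ B, ρ b = y
  eqv : ∀ g, ∀ b ∈ B, ρ (g * b * g⁻¹) = (θ g).1 *ᵥ ρ b

theorem g32 [Finite X] {G : Type*} [Group G] (θ : X →* G) (hS : H11.SR 4 (⊤ : Subgroup X)) {K A : Subgroup X}
    (hKA : K ≤ A) (hA : A ≤ θ.ker) (h8 : Nat.card A = 8 * Nat.card K) (hsq : ∀ a ∈ A, a * a ∈ K) {y y' : X}
    (hy : ∀ a ∈ A, y * a * y⁻¹ * a⁻¹ ∈ K) (hy' : ∀ a ∈ A, y' * a * y'⁻¹ * a⁻¹ ∈ K) (h1 : y * y ∈ K)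
    (h2 : y' * y' ∈ K) (h3 : y * y' * (y * y') ∈ K) (n1 : θ y ≠ 1) (n2 : θ y' ≠ 1) (n3 : θ (y * y') ≠ 1) : False := by
  have nA : A ≤ Subgroup.normalizer (K : Set X) := fun a ha =>
    Subgroup.mem_normalizer_fintype fun k hk => H11.conj_mem_of_sq hKA hsq ha hk
  have nz : ∀ z : X, (∀ a ∈ A, z * a * z⁻¹ * a⁻¹ ∈ K) → z ∈ Subgroup.normalizer (K : Set X) := fun z h =>
    Subgroup.mem_normalizer_fintype fun k hk => by simpa using K.mul_mem (h k (hKA hk)) hk
  let H := Subgroup.normalizer (K : Set X)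
  let q := QuotientGroup.mk' (K.subgroupOf H)
  have hq : ∀ g : H, q g = 1 ↔ g.1 ∈ K := fun g => QuotientGroup.eq_one_iff g
  let S : Set H := {g | g.1 ∈ A ∨ g.1 = y ∨ g.1 = y'}
  have s2 : ∀ g ∈ S, q g * q g = 1 := by
    rintro g (h | h | h) <;> rw [← map_mul, hq, Subgroup.coe_mul]
    exacts [hsq _ h, h ▸ h1, h ▸ h2]
  have cm : ∀ a b : H, a.1 * b.1 * a.1⁻¹ * b.1⁻¹ ∈ K → Commute (q a) (q b) := fun a b h => by
    have := (hq (a * b * a⁻¹ * b⁻¹)).2 h
    simp only [map_mul, map_inv] at this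
    exact commutatorElement_eq_one_iff_commute.1 this
  have c2 : ∀ a ∈ S, ∀ b ∈ S, a.1 * b.1 * (a.1 * b.1) ∈ K → Commute (q a) (q b) := fun a ha b hb h => by
    have e := (hq (a * b * (a * b))).2 h
    simp only [map_mul] at e
    have e1 := eq_inv_of_mul_eq_one_left e
    rw [_root_.mul_inv_rev, ← eq_inv_of_mul_eq_one_left (s2 a ha), ← eq_inv_of_mul_eq_one_left (s2 b hb)] at e1
    exact e1
  have sc : ∀ a ∈ S, ∀ b ∈ S, Commute (q a) (q b) := by
    intro a ha b hb
    rcases id ha with h | h | h <;> rcases id hb with k | k | k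
    · exact c2 a ha b hb (hsq _ (A.mul_mem h k))
    · exact (cm b a (k ▸ hy _ h)).symm
    · exact (cm b a (k ▸ hy' _ h)).symm
    · exact cm a b (h ▸ hy _ k)
    · rw [Subtype.ext (h.trans k.symm)]
    · exact c2 a ha b hb (by rw [h, k]; exact h3)
    · exact cm a b (h ▸ hy' _ k)
    · exact (c2 b hb a ha (by rw [h, k]; exact h3)).symm
    · rw [Subtype.ext (h.trans k.symm)]
  have cl : ∀ g ∈ Subgroup.closure S, ∀ b ∈ S, Commute (q g) (q b) := fun g hg b hb => by
    induction hg using Subgroup.closure_induction with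
    | mem a ha => exact sc a ha b hb
    | one => simp
    | mul a c _ _ h k => rw [map_mul]; exact h.mul_left k
    | inv a _ h => rw [map_inv]; exact h.inv_left
  have cl2 : ∀ g ∈ Subgroup.closure S, ∀ b ∈ Subgroup.closure S, Commute (q g) (q b) := fun g hg b hb => by
    induction hb using Subgroup.closure_induction with
    | mem a ha => exact cl g hg a ha
    | one => simp
    | mul a c _ _ h k => rw [map_mul]; exact h.mul_right k
    | inv a _ h => rw [map_inv]; exact h.inv_right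
  have sq : ∀ g ∈ Subgroup.closure S, q g * q g = 1 := fun g hg => by
    induction hg using Subgroup.closure_induction with
    | mem a ha => exact s2 a ha
    | one => simp
    | mul a c ha hc h k => rw [map_mul, (cl2 a ha c hc).symm.mul_mul_mul_comm, h, k, one_mul]
    | inv a _ h => rw [map_inv, ← _root_.mul_inv_rev, h, inv_one]
  let R := (Subgroup.closure S).map H.subtype
  have AR : A ≤ R := fun a ha => ⟨⟨a, nA ha⟩, Subgroup.subset_closure (.inl ha), rfl⟩
  have yR : y ∈ R := ⟨⟨y, nz y hy⟩, Subgroup.subset_closure (.inr (.inl rfl)), rfl⟩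
  have yR' : y' ∈ R := ⟨⟨y', nz y' hy'⟩, Subgroup.subset_closure (.inr (.inr rfl)), rfl⟩
  have r := hS R le_top K (hKA.trans AR) (by
    rintro _ ⟨g, hg, rfl⟩
    exact (hq (g * g)).1 (by rw [map_mul]; exact sq g hg))
  have a1 : K.relIndex A = 8 := by
    have := (K.subgroupOf A).card_mul_index
    rw [Nat.card_congr (Subgroup.subgroupOfEquivOfLe hKA).toEquiv, h8, mul_comm 8] at this
    exact Nat.eq_of_mul_eq_mul_left Nat.card_pos this
  have a2 := Subgroup.relIndex_mul_relIndex K A R hKA AR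
  have a3 := Nat.le_of_dvd (Nat.pos_of_ne_zero (Subgroup.index_ne_zero_of_finite (H := A.subgroupOf R)))
    (Subgroup.relIndex_dvd_of_le_left R hA)
  rw [Subgroup.relIndex_ker] at a3
  have yy : θ y * θ y = 1 := by rw [← map_mul]; exact hA (hKA h1)
  have a4 : 4 ≤ Nat.card (R.map θ) := by
    have : Finite (R.map θ) := Finite.of_surjective _ (θ.subgroupMap_surjective R)
    have ne : θ y ≠ θ y' := fun e => n3 (by rw [map_mul, ← e, yy])
    have := Fintype.ofFinite (R.map θ)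
    classical
    rw [Nat.card_eq_fintype_card]
    refine le_trans (le_of_eq ?_) (Finset.card_le_univ {1, ⟨θ y, y, yR, rfl⟩, ⟨θ y', y', yR', rfl⟩,
      ⟨θ (y * y'), _, R.mul_mem yR yR', rfl⟩})
    rw [Finset.card_insert_of_notMem, Finset.card_insert_of_notMem, Finset.card_pair] <;>
      simp [Subtype.ext_iff, n1, n2, ne, n1.symm, n2.symm]
    rw [← map_mul]; exact n3.symm
  change _ ≤ A.relIndex R at a3
  nlinarith

end Cfsg.Agent.L32
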