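import Cfsg.Agent.L32.A

/-! The abelian case with a cyclic factor of order at least eight. -/

set_option autoImplicit false

namespace Cfsg.Agent.L32

open Matrix

variable {X : Type*} [Group X]

namespace PA

/-- element of order three -/
def mT : GL (Fin 3) (ZMod 2) :=
  ⟨!![1,0,0;0,0,1;0,1,1], !![1,0,0;0,1,1;0,1,0], by decide, by decide⟩
/-- a transvection -/
def mA : GL (Fin 3) (ZMod 2) :=
  ⟨!![1,1,0;0,1,0;0,0,1], !![1,1,0;0,1,0;0,0,1], by decide, by decide⟩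
/-- first involution -/
def mU : GL (Fin 3) (ZMod 2) :=
  ⟨!![1,0,1;0,1,0;0,0,1], !![1,0,1;0,1,0;0,0,1], by decide, by decide⟩
/-- second involution -/
def mV : GL (Fin 3) (ZMod 2) := mA

theorem T3 : mT ^ 3 = 1 := Units.ext (by decide)
theorem eU : mA⁻¹ * (mT * mA * mT⁻¹) = mU := Units.ext (by decide)
theorem eV : mT * mU * mT⁻¹ = mV := Units.ext (by decide)
theorem UU : mU * mU = 1 := Units.ext (by decide)
theorem U1 : mU ≠ 1 := fun e => absurd (congrArg Units.val e) (by decide)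
theorem V1 : mV ≠ 1 := fun e => absurd (congrArg Units.val e) (by decide)
theorem UV1 : mU * mV ≠ 1 := fun e => absurd (congrArg Units.val e) (by decide)
theorem a1 : ∀ x : Fin 3 → ZMod 2, (mU.1 *ᵥ x + x) 1 = 0 ∧ (mU.1 *ᵥ x + x) 2 = 0 := by decide
theorem a2 : ∀ x : Fin 3 → ZMod 2, (mV.1 *ᵥ x + x) 1 = 0 ∧ (mV.1 *ᵥ x + x) 2 = 0 := by decide
theorem b1 : ∀ x : Fin 3 → ZMod 2, mU.1 *ᵥ x = x → x + mV.1 *ᵥ x = 0 → x 1 = 0 ∧ x 2 = 0 := by
  decide
theorem c1 : ∀ x : Fin 3 → ZMod 2, mT.1 *ᵥ x = x → x 1 = 0 ∧ x 2 = 0 := by decide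
theorem d1 : ∀ x : Fin 3 → ZMod 2, x 1 = 0 ∧ x 2 = 0 → mT.1 *ᵥ x + x = 0 := by decide
theorem d2 : ∀ x : Fin 3 → ZMod 2, x 1 = 0 ∧ x 2 = 0 → mU.1 *ᵥ x + x = 0 := by decide

theorem exT {θ : X →* GL (Fin 3) (ZMod 2)} (hs : Function.Surjective θ) (h2 : IsPGroup 2 θ.ker) :
    ∃ t, θ t = mT ∧ t * t * t = 1 := by
  obtain ⟨t0, h0⟩ := hs mT
  obtain ⟨k, hk⟩ := h2 ⟨t0 ^ 3, by rw [MonoidHom.mem_ker, map_pow, h0, T3]⟩
  have hk' : (t0 ^ 3) ^ 2 ^ k = 1 := congrArg Subtype.val hk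
  refine ⟨t0 ^ 4 ^ k, ?_, ?_⟩
  · rw [map_pow, h0, pow_eq_pow_mod _ T3, Nat.pow_mod]; simp
  · rw [← pow_three', ← pow_mul, mul_comm, pow_mul, show 4 ^ k = 2 ^ k * 2 ^ k from
      mul_pow 2 2 k, pow_mul, hk', one_pow]

end PA

open PA in
theorem pa [Finite X] {θ : X →* GL (Fin 3) (ZMod 2)} {ρ : X → Fin 3 → ZMod 2} {D W : Subgroup X}
    (h : Co θ ρ D W) (hS : H11.SR 4 (⊤ : Subgroup X)) {c : X} {n : ℕ} (hc : c ∈ θ.ker)
    (hQ : ∀ a ∈ θ.ker, ∀ b ∈ θ.ker, a*b = b*a) (hQ2 : θ.ker = W ⊔ Subgroup.zpowers c)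
    (hW : ∀ w ∈ W, w*w = 1) (ho : orderOf c = 2^(n+3)) (hD : D = Subgroup.zpowers (c^(2^(n+2))))
    (hcW : W ⊓ Subgroup.zpowers c = D) (ht : ∀ g, g*c*g⁻¹*c⁻¹ ∈ W) : False := by
  haveI := h.nB
  have cW : ∀ g, ∀ w ∈ W, g * w * g⁻¹ ∈ W := fun g w hw => h.nB.conj_mem w hw g
  have wi : ∀ w ∈ W, w⁻¹ = w := fun w hw => inv_eq_of_mul_eq_one_right (hW w hw)
  have cm : ∀ a ∈ W, ∀ b ∈ W, Commute a b := fun a ha b hb => hQ a (h.leQ ha) b (h.leQ hb)
  have cc : ∀ g, Commute g (c ^ 2) := fun g => by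
    have e : g * c * g⁻¹ = g * c * g⁻¹ * c⁻¹ * c := by group
    have c1 : Commute (g * c * g⁻¹ * c⁻¹) c := hQ _ (h.leQ (ht g)) _ hc
    rw [Commute, SemiconjBy, ← mul_inv_eq_iff_eq_mul, ← conj_pow, e, c1.mul_pow, sq _, hW _ (ht g),
      one_mul]
  obtain ⟨d, hd⟩ : ∃ d, d = c ^ 2 ^ (n + 2) := ⟨_, rfl⟩
  have dc : ∀ g, Commute g d := fun g => by
    rw [hd, pow_succ', pow_mul]; exact (cc g).pow_right _
  have dd : d * d = 1 := by rw [hd, ← pow_add, ← two_mul, ← pow_succ', ← ho, pow_orderOf_eq_one]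
  have mD : ∀ x ∈ D, x = 1 ∨ x = d := by
    rw [hD, ← hd]
    rintro _ ⟨k, rfl⟩
    obtain ⟨j, rfl | rfl⟩ := Int.even_or_odd' k
    · left; simp only; rw [_root_.zpow_mul, zpow_two, dd, _root_.one_zpow]
    · right; simp only; rw [_root_.zpow_add_one, _root_.zpow_mul, zpow_two, dd, _root_.one_zpow, one_mul]
  let f : W →* Multiplicative (ZMod 2 × ZMod 2) := MonoidHom.mk'
    (fun w => Multiplicative.ofAdd (ρ w 1, ρ w 2)) fun a b => by
      rw [← ofAdd_add, Subgroup.coe_mul, h.add _ a.2 _ b.2]; rfl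
  let P := f.ker.map W.subtype
  have mP : ∀ {w}, w ∈ W → (w ∈ P ↔ ρ w 1 = 0 ∧ ρ w 2 = 0) := fun {w} hw => by
    rw [← Prod.mk_eq_zero]
    exact ⟨fun ⟨a, ha, e⟩ => e ▸ ha, fun e => ⟨⟨w, hw⟩, e, rfl⟩⟩
  have PW : P ≤ W := Subgroup.map_subtype_le _
  have DP : D ≤ P := fun x hx => (mP (h.le hx)).2 (by rw [(h.zero x (h.le hx)).2 hx]; simp)
  have cP : Nat.card W = 4 * Nat.card P := by
    have hf : Function.Surjective f := fun y => by
      obtain ⟨b, hb, e⟩ := h.onto ![0, y.toAdd.1, y.toAdd.2]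
      exact ⟨⟨b, hb⟩, by simp [f, e]⟩
    rw [Subgroup.card_subtype, ← f.ker.index_mul_card, Subgroup.index_ker,
      MonoidHom.range_eq_top.2 hf]
    simp
  have cmW : ∀ g, ∀ w ∈ W, ρ (g * w * g⁻¹ * w) = (θ g).1 *ᵥ ρ w + ρ w := fun g w hw => by
    rw [h.add _ (cW g w hw) _ hw, h.eqv g w hw]
  have fx : ∀ g, ∀ w ∈ W, (θ g).1 *ᵥ ρ w + ρ w = 0 → g * w * g⁻¹ = w ∨ g * w * g⁻¹ = d * w :=
    fun g w hw e => by
      have := mD _ ((h.zero _ (W.mul_mem (cW g w hw) hw)).1 ((cmW g w hw).trans e))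
      nth_rewrite 2 4 [← wi w hw] at this
      exact this.imp mul_inv_eq_one.1 mul_inv_eq_iff_eq_mul.1
  have cj : ∀ g w, g * (d * w) * g⁻¹ = d * (g * w * g⁻¹) := fun g w => by
    rw [← mul_assoc, (dc g).eq]; group
  obtain ⟨t, tT, t3⟩ := exT h.surj h.two
  obtain ⟨a, aA⟩ := h.surj mA
  obtain ⟨u, hu⟩ : ∃ u, u = a⁻¹ * (t * a * t⁻¹) := ⟨_, rfl⟩
  obtain ⟨u', hu'⟩ : ∃ u', u' = t * u * t⁻¹ := ⟨_, rfl⟩
  obtain ⟨u'', hu''⟩ : ∃ u'', u'' = t * u' * t⁻¹ := ⟨_, rfl⟩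
  have uU : θ u = mU := by rw [hu, ← eU]; simp [aA, tT]
  have uV : θ u' = mV := by rw [hu', ← eV]; simp [uU, tT]
  have u3 : u * u' * u'' = 1 := by
    calc _ = a⁻¹ * (t * t * t) * a * (t * t * t)⁻¹ := by rw [hu'', hu', hu]; group
      _ = 1 := by rw [t3]; simp
  have c3 : ∀ x, t * (t * (t * x * t⁻¹) * t⁻¹) * t⁻¹ = x := fun x => by
    calc _ = (t * t * t) * x * (t * t * t)⁻¹ := by group
      _ = x := by rw [t3]; simp
  have tP : ∀ w ∈ P, t * w * t⁻¹ = w := fun w hw => by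
    refine (fx t w (PW hw) (tT ▸ d1 _ ((mP (PW hw)).1 hw))).elim id fun e => ?_
    have := c3 w
    rw [e, cj, e, ← mul_assoc d d, dd, one_mul] at this
    exact this
  have nx : ∀ g, ∀ w ∈ P, ∀ e, (e = 1 ∨ e = d) → g * w * g⁻¹ = e * w →
      t * g * t⁻¹ * w * (t * g * t⁻¹)⁻¹ = e * w := fun g w hw e he e1 => by
    have e2 : t⁻¹ * w * t = w := by
      nth_rewrite 1 [← tP w hw]; group
    calc _ = t * (g * (t⁻¹ * w * t) * g⁻¹) * t⁻¹ := by group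
      _ = _ := by
        rw [e2, e1]
        rcases he with rfl | rfl
        · simpa using tP w hw
        · rw [cj, tP w hw]
  have uP : ∀ w ∈ P, u * w * u⁻¹ = w := fun w hw => by
    refine (fx u w (PW hw) (uU ▸ d2 _ ((mP (PW hw)).1 hw))).elim id fun e => ?_
    have e1 := nx u w hw d (.inr rfl) e
    rw [← hu'] at e1
    have e2 := nx u' w hw d (.inr rfl) e1
    rw [← hu''] at e2
    have : u * (u' * (u'' * w * u''⁻¹) * u'⁻¹) * u⁻¹ = w := by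
      calc _ = (u * u' * u'') * w * (u * u' * u'')⁻¹ := by group
        _ = w := by rw [u3]; simp
    rwa [e2, cj, e1, ← mul_assoc d d, dd, one_mul] at this
  have uP' : ∀ w ∈ P, u' * w * u'⁻¹ = w := fun w hw => by
    simpa [← hu'] using nx u w hw 1 (.inl rfl) (by simpa using uP w hw)
  have zQ : u * u ∈ θ.ker := by rw [MonoidHom.mem_ker, map_mul, uU, UU]
  have cQ : ∀ g, ∀ q ∈ θ.ker, g * q * g⁻¹ ∈ θ.ker := fun g q hq => θ.normal_ker.conj_mem q hq g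
  have z' : u' * u' = t * (u * u) * t⁻¹ := by rw [hu']; group
  have z'' : u'' * u'' = t * (u' * u') * t⁻¹ := by rw [hu'']; group
  have zQ' : u' * u' ∈ θ.ker := z' ▸ cQ t _ zQ
  have zQ'' : u'' * u'' ∈ θ.ker := z'' ▸ cQ t _ zQ'
  obtain ⟨k, hk⟩ : ∃ k, k = u * u * (u' * u') * (u'' * u'') := ⟨_, rfl⟩
  have ek : u * u * u' * (u * u)⁻¹ * u'⁻¹ = k * (u⁻¹ * k * u) := by
    have e : u'' = (u * u')⁻¹ := eq_inv_of_mul_eq_one_right u3
    rw [hk, e]; group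
  obtain ⟨w, hw, _, ⟨i, rfl⟩, ez⟩ := Subgroup.mem_sup_of_normal_left.1 (hQ2 ▸ zQ)
  simp only at ez
  let π := QuotientGroup.mk' W
  have π1 : ∀ x, π x = 1 ↔ x ∈ W := fun x => QuotientGroup.eq_one_iff x
  have πc : ∀ g, Commute (π g) (π c) := fun g => by
    have := (π1 _).2 (ht g)
    simp only [map_mul, map_inv] at this
    exact commutatorElement_eq_one_iff_commute.1 this
  have πz : π (u * u) = π c ^ i := by rw [← ez, map_mul, (π1 w).2 hw, one_mul, map_zpow]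
  have πj : ∀ g x (m : ℤ), π x = π c ^ m → π (g * x * g⁻¹) = π c ^ m := fun g x m e => by
    rw [map_mul, map_mul, map_inv, e, ((πc g).zpow_right m).eq, mul_inv_cancel_right]
  have πz' : π (u' * u') = π c ^ i := by rw [z']; exact πj _ _ _ πz
  have πz'' : π (u'' * u'') = π c ^ i := by rw [z'']; exact πj _ _ _ πz'
  have πk : π k = π c ^ (i + i + i) := by
    rw [hk, map_mul, map_mul, πz, πz', πz'', _root_.zpow_add, _root_.zpow_add]
  have oc : ∀ m : ℤ, c ^ m = 1 → (2 : ℤ) ^ (n + 3) ∣ m := fun m e => by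
    have := orderOf_dvd_iff_zpow_eq_one.2 e
    rw [ho] at this
    exact_mod_cast this
  obtain ⟨j, rfl⟩ : 2 ∣ i := by
    have e1 := congrArg π ek
    have e2 := πj u⁻¹ k _ πk
    rw [inv_inv] at e2
    rw [map_mul π k, πk, e2, map_mul, map_mul, map_mul, map_inv, map_inv, πz,
      ← ((πc u').zpow_right i).eq, mul_inv_cancel_right, mul_inv_cancel, ← _root_.zpow_add,
      ← map_zpow] at e1
    have e3 := hW _ ((π1 _).1 e1.symm)
    rw [← _root_.zpow_add] at e3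
    have e4 : (8 : ℤ) ∣ _ := (Dvd.intro_left (2 ^ n) (by ring)).trans (oc _ e3)
    omega
  obtain ⟨z, hz⟩ : ∃ z, z = c ^ (2 * j) := ⟨_, rfl⟩
  have zc : ∀ g, Commute g z := fun g => by
    rw [hz, _root_.zpow_mul, zpow_ofNat]; exact (cc g).zpow_right j
  rw [← hz] at ez
  have cz : ∀ g x, g * (x * z) * g⁻¹ = g * x * g⁻¹ * z := fun g x => by
    rw [mul_assoc _ g⁻¹, (zc g⁻¹).eq]; group
  have w1 := cW t w hw
  have w2 := cW t _ w1
  have ek2 : k = w * (t * w * t⁻¹) * (t * (t * w * t⁻¹) * t⁻¹) * (z * z * z) := by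
    rw [hk, z'', z', ← ez, cz, cz, ← (zc _).mul_mul_mul_comm, ← ((zc _).mul_right (zc _)).mul_mul_mul_comm]
  have w3P : w * (t * w * t⁻¹) * (t * (t * w * t⁻¹) * t⁻¹) ∈ P := by
    have hm := W.mul_mem (W.mul_mem hw w1) w2
    refine (mP hm).2 (c1 _ ?_)
    rw [← tT, ← h.eqv t _ hm]
    congr 1
    calc _ = t * w * t⁻¹ * (t * (t * w * t⁻¹) * t⁻¹) * (t * (t * (t * w * t⁻¹) * t⁻¹) * t⁻¹) := by
          group
      _ = _ := by rw [c3, ← (cm _ hw _ (W.mul_mem w1 w2)).eq, mul_assoc w]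
  have z3 : ∀ g, Commute g (z * z * z) := fun g => ((zc g).mul_right (zc g)).mul_right (zc g)
  have ek3 : w * (u' * w * u'⁻¹) = c ^ (12 * j) := by
    have e1 : Commute u k := by
      rw [ek2]; exact Commute.mul_right (mul_inv_eq_iff_eq_mul.1 (uP _ w3P)) (z3 u)
    rw [e1.inv_left.eq, inv_mul_cancel_right, ek2, ← (z3 _).mul_mul_mul_comm, hW _ (PW w3P),
      one_mul, ← ez, _root_.mul_inv_rev, wi w hw, mul_assoc w z, ← (zc u').eq] at ek
    calc _ = w * (u' * z) * (z⁻¹ * w) * u'⁻¹ := by group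
      _ = _ := by rw [ek, hz]; group
  have wP : w ∈ P := by
    refine (mP hw).2 (b1 _ ?_ ?_)
    · rw [← uU, ← h.eqv u w hw]
      congr 1
      have := cz u w
      rw [ez, show u * (u * u) * u⁻¹ = u * u by group, ← ez] at this
      exact (mul_right_cancel this).symm
    · have hm := W.mul_mem hw (cW u' w hw)
      rw [← uV, ← h.eqv u' w hw, ← h.add _ hw _ (cW u' w hw), h.zero _ hm, ← hcW]
      exact ⟨hm, ek3 ▸ ⟨_, rfl⟩⟩
  have zP : z ∈ P := by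
    rw [uP' w wP, hW w hw] at ek3
    have e1 := oc _ ek3.symm
    rw [show (2 : ℤ) ^ (n + 3) = 2 ^ (n + 1) * 4 by ring, show 12 * j = 3 * j * 4 by ring,
      mul_dvd_mul_iff_right (by norm_num)] at e1
    obtain ⟨m, rfl⟩ := (IsCoprime.pow_left (⟨-1, 1, by norm_num⟩ : IsCoprime (2 : ℤ) 3)).dvd_of_dvd_mul_left e1
    refine DP (hD ▸ ⟨m, ?_⟩)
    simp only
    rw [hz, ← zpow_natCast, ← _root_.zpow_mul]
    congr 1
    push_cast; ring
  have s1 : u * u ∈ P := ez ▸ P.mul_mem wP zP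
  have s2 : u' * u' ∈ P := by rw [z', tP _ s1]; exact s1
  have s3 : u * u' * (u * u') ∈ P := by
    rw [eq_inv_of_mul_eq_one_left u3, ← _root_.mul_inv_rev, z'', tP _ s2]; exact P.inv_mem s2
  obtain ⟨e, he⟩ : ∃ e, e = c ^ 2 ^ (n + 1) := ⟨_, rfl⟩
  have ec : ∀ g, Commute g e := fun g => by
    rw [he, pow_succ', pow_mul]; exact (cc g).pow_right _
  have ee : e * e = d := by rw [he, hd, ← pow_add, ← two_mul, ← pow_succ']
  have dP : d ∈ P := DP (by rw [hD, hd]; exact Subgroup.mem_zpowers _)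
  have eW : e ∉ W := fun he' => by
    have := orderOf_dvd_of_pow_eq_one (hd ▸ ee ▸ hW e he' : c ^ 2 ^ (n + 2) = 1)
    rw [ho, Nat.pow_dvd_pow_iff_le_right (by norm_num)] at this
    omega
  let A := W ⊔ Subgroup.zpowers e
  have mA' : ∀ x ∈ A, x ∈ W ∨ ∃ v ∈ W, x = v * e := fun x hx => by
    obtain ⟨v, hv, _, ⟨m, rfl⟩, rfl⟩ := Subgroup.mem_sup_of_normal_left.1 hx
    have hm : (e ^ (2 : ℤ)) ^ (m / 2) ∈ W := by rw [zpow_two, ee]; exact W.zpow_mem (PW dP) _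
    simp only
    rcases Int.emod_two_eq_zero_or_one m with e1 | e1
    · left
      rw [← Int.mul_ediv_add_emod m 2, e1, add_zero, _root_.zpow_mul]; exact W.mul_mem hv hm
    · right
      refine ⟨_, W.mul_mem hv hm, ?_⟩
      nth_rewrite 1 [← Int.mul_ediv_add_emod m 2]
      rw [e1, _root_.zpow_add_one, _root_.zpow_mul, mul_assoc]
  have eA : e ∈ A := Subgroup.mem_sup_right (Subgroup.mem_zpowers e)
  have cA : Nat.card A = 8 * Nat.card P := by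
    have i2 : W.relIndex A = 2 := by
      rw [Subgroup.relIndex_eq_two_iff]
      refine ⟨e, eA, fun b hb => ?_⟩
      rcases mA' b hb with e1 | ⟨v, hv, rfl⟩
      · exact Or.inr ⟨e1, fun e2 => eW (by simpa using W.mul_mem (W.inv_mem e1) e2)⟩
      · refine Or.inl ⟨by rw [mul_assoc, ee]; exact W.mul_mem hv (PW dP), fun e2 => eW ?_⟩
        simpa using W.mul_mem (W.inv_mem hv) e2
    have := (W.subgroupOf A).card_mul_index
    rw [Nat.card_congr (Subgroup.subgroupOfEquivOfLe (le_sup_left : W ≤ A)).toEquiv, cP] at this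
    change _ * W.relIndex A = _ at this
    rw [← this, i2]; ring
  have cen : ∀ y, (∀ v ∈ W, y * v * y⁻¹ * v ∈ P) → ∀ x ∈ A, y * x * y⁻¹ * x⁻¹ ∈ P := fun y hy x hx => by
    rcases mA' x hx with e1 | ⟨v, hv, rfl⟩
    · rw [wi x e1]; exact hy x e1
    · have := hy v hv
      nth_rewrite 2 [← wi v hv] at this
      convert this using 1
      calc _ = y * v * (e * y⁻¹ * e⁻¹) * v⁻¹ := by group
        _ = _ := by rw [← (ec y⁻¹).eq]; group
  refine g32 θ hS (K := P) (A := A) (y := u) (y' := u') (PW.trans le_sup_left)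
    (sup_le h.leQ (Subgroup.zpowers_le.2 (he ▸ θ.ker.pow_mem hc _))) cA (fun x hx => ?_)
    (cen u fun v hv => ?_) (cen u' fun v hv => ?_) s1 s2 s3 (uU ▸ U1) (uV ▸ V1)
    (by rw [map_mul, uU, uV]; exact UV1)
  · rcases mA' x hx with e1 | ⟨v, hv, rfl⟩
    · rw [hW x e1]; exact P.one_mem
    · rw [← (ec v).mul_mul_mul_comm, hW v hv, one_mul, ee]; exact dP
  · exact (mP (W.mul_mem (cW u v hv) hv)).2 (by rw [cmW u v hv, uU]; exact a1 _)
  · exact (mP (W.mul_mem (cW u' v hv) hv)).2 (by rw [cmW u' v hv, uV]; exact a2 _)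

end Cfsg.Agent.L32
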