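import Cfsg.Agent.L32.A
import Cfsg.Agent.H12.Lin

/-! Three lemmas on extensions of a 2-group by `GL(3,2)`. -/

set_option autoImplicit false
set_option synthInstance.maxSize 4000

namespace Cfsg.Agent.L32

open Matrix

namespace PB

theorem simple : IsSimpleGroup (GL (Fin 3) (ZMod 2)) := by
  have hc : Subgroup.center (Matrix.SpecialLinearGroup (Fin 3) (ZMod 2)) = ⊥ := by
    rw [← Subgroup.card_eq_one, H12.card_center_SL]; simp
  haveI := H12.PSL_fin_simple (F := ZMod 2) 3 (by norm_num) (by norm_num)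
  have e : GL (Fin 3) (ZMod 2) ≃* Matrix.ProjectiveSpecialLinearGroup (Fin 3) (ZMod 2) := by
    refine (MulEquiv.ofBijective Matrix.SpecialLinearGroup.toGL
      ⟨Matrix.SpecialLinearGroup.toGL_injective, fun g => ⟨⟨g.1, ?_⟩, Units.ext rfl⟩⟩).symm.trans
      ((QuotientGroup.quotientMulEquivOfEq hc).trans QuotientGroup.quotientBot).symm
    have : ∀ a : ZMod 2, a ≠ 0 → a = 1 := by decide
    exact this _ g.det_ne_zero
  exact e.isSimpleGroup

theorem card : Nat.card (GL (Fin 3) (ZMod 2)) = 168 := by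
  rw [Matrix.card_GL_field, Fin.prod_univ_three, ZMod.card]; rfl

theorem idx (H : Subgroup (GL (Fin 3) (ZMod 2))) (h : H ≠ ⊤) : 7 ≤ H.index := by
  have h1 : H.normalCore.index ∣ H.index.factorial := by
    rw [Subgroup.normalCore_eq_ker, Subgroup.index_ker, Subgroup.index_eq_card, ← Nat.card_perm]
    exact Subgroup.card_subgroup_dvd_card (MulAction.toPermHom _ (_ ⧸ H)).range
  rcases simple.eq_bot_or_eq_top_of_normal _ H.normalCore_normal with e | e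
  · rw [e, Subgroup.index_bot, card] at h1
    by_contra hc
    have : H.index ≤ 6 := by omega
    have := h1.trans (Nat.factorial_dvd_factorial this)
    norm_num [Nat.factorial] at this
  · exact absurd (eq_top_iff.mpr (e ▸ H.normalCore_le)) h

abbrev V : Type := Fin 3 → ZMod 2

/-- the transvection with centre `u` and axis `ker φ` -/
def tv (u φ v : V) : V := v + (φ ⬝ᵥ v) • u

variable {X : Type*} [Group X] {θ : X →* GL (Fin 3) (ZMod 2)}

theorem ex_tv (hs : Function.Surjective θ) {u φ : V} (h : φ ⬝ᵥ u = 0) :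
    ∃ y : X, y * y ∈ θ.ker ∧ ∀ v, (θ y).1 *ᵥ v = tv u φ v := by
  have e : ∀ v, (1 + vecMulVec u φ) *ᵥ v = tv u φ v := fun v => by
    rw [add_mulVec, one_mulVec, vecMulVec_mulVec, op_smul_eq_smul]; rfl
  have t2 : ∀ u φ v : V, φ ⬝ᵥ u = 0 → tv u φ (tv u φ v) = v := by decide +kernel
  have e2 : (1 + vecMulVec u φ) * (1 + vecMulVec u φ) = 1 := by
    refine Matrix.ext_iff_mulVec.mpr fun v => ?_
    rw [← mulVec_mulVec, e, e, t2 _ _ _ h, one_mulVec]
  obtain ⟨y, hy⟩ := hs ⟨_, _, e2, e2⟩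
  refine ⟨y, ?_, fun v => by rw [hy]; exact e v⟩
  rw [MonoidHom.mem_ker, map_mul, hy]
  exact Units.ext e2

theorem t1 : ∀ a b : V, a ≠ 0 → b ≠ 0 → ∃ u φ : V, φ ⬝ᵥ u = 0 ∧ tv u φ a = b := by decide +kernel
theorem t2 : ∀ a b c : V, a ≠ 0 → b ≠ 0 → c ≠ 0 → a ≠ b → a ≠ c →
    ∃ u φ : V, φ ⬝ᵥ u = 0 ∧ tv u φ a = a ∧ tv u φ b = c := by decide +kernel
theorem f1 : ∀ a c : V, c ≠ 0 → c ≠ a → ∃ u φ : V, φ ⬝ᵥ u = 0 ∧ tv u φ a = a ∧ tv u φ c ≠ c := by decide +kernel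
theorem f2 : ∀ a b c : V, c ≠ 0 → c ≠ a → c ≠ b → c ≠ a + b →
    ∃ u φ : V, φ ⬝ᵥ u = 0 ∧ tv u φ a = a ∧ tv u φ b = b ∧ tv u φ c ≠ c := by decide +kernel
theorem t3 : ∀ c : V, c ≠ 0 → c ≠ Pi.single 0 1 → c ≠ Pi.single 1 1 → c ≠ Pi.single 0 1 + Pi.single 1 1 →
    ∃ u φ : V, φ ⬝ᵥ u = 0 ∧ tv u φ (Pi.single 0 1) = Pi.single 0 1 ∧ tv u φ (Pi.single 1 1) = Pi.single 1 1 ∧
      tv u φ c = Pi.single 2 1 := by decide +kernel

theorem ker_of {g : X} (h0 : (θ g).1 *ᵥ Pi.single 0 1 = Pi.single 0 1) (h1 : (θ g).1 *ᵥ Pi.single 1 1 = Pi.single 1 1)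
    (h2 : (θ g).1 *ᵥ Pi.single 2 1 = Pi.single 2 1) : g ∈ θ.ker := by
  rw [MonoidHom.mem_ker]
  refine Units.ext (Matrix.ext fun i j => ?_)
  have key : ∀ j : Fin 3, (θ g).1 *ᵥ Pi.single j 1 = Pi.single j 1 := fun j => by
    fin_cases j
    exacts [h0, h1, h2]
  have := congrFun (key j) i
  rw [mulVec_single_one] at this
  rw [Units.val_one, Matrix.one_apply]
  simpa [Pi.single_apply] using this

theorem inj (g : X) : Function.Injective fun v : V => (θ g).1 *ᵥ v := fun a b e => by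
  have := congrArg (fun v => (θ g)⁻¹.1 *ᵥ v) e
  simpa [mulVec_mulVec] using this

theorem act_mul (g h : X) (v : V) : (θ (g * h)).1 *ᵥ v = (θ g).1 *ᵥ ((θ h).1 *ᵥ v) := by
  rw [map_mul, Units.val_mul, mulVec_mulVec]

end PB

open PB

variable {X : Type*} [Group X] [Finite X] {θ : X →* GL (Fin 3) (ZMod 2)} {ρ : X → Fin 3 → ZMod 2}

theorem fpf (hs : Function.Surjective θ) {S : Set X} (h8 : S.ncard = 8) (hi : ∀ g, ∀ s ∈ S, g * s * g⁻¹ ∈ S)
    (hQ : ∀ q ∈ θ.ker, ∀ s ∈ S, q * s = s * q) (hZ : ∀ s ∈ S, s ∉ Subgroup.center X) {y s : X} (hy : y * y ∈ θ.ker)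
    (hs' : s ∈ S) (e : y * s = s * y) : y ∈ θ.ker := by
  let C : X → Set X := fun s => {x | IsConj s x}
  have sub : ∀ s ∈ S, C s ⊆ S := fun s hs x hx => by
    obtain ⟨g, rfl⟩ := isConj_iff.mp hx
    exact hi g s hs
  have ci : ∀ s ∈ S, (C s).ncard = ((Subgroup.centralizer {s}).map θ).index := fun s hs => by
    rw [Subgroup.index_map_eq _ ‹_› fun q hq => Subgroup.mem_centralizer_singleton_iff.mpr (hQ q hq s hs),
      Subgroup.centralizer_eq_comap_stabilizer]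
    refine Eq.trans ?_ (Subgroup.index_comap_of_surjective (f := (ConjAct.toConjAct (G := X)).toMonoidHom) _
      ConjAct.toConjAct.surjective).symm
    rw [MulAction.index_stabilizer, ConjAct.orbit_eq_carrier_conjClasses]
    congr 1
  have c7 : ∀ s ∈ S, 7 ≤ (C s).ncard := fun s hs => by
    rw [ci s hs]
    refine idx _ fun e => hZ s hs (Subgroup.mem_center_iff.mpr fun g => ?_)
    have : θ g ∈ (Subgroup.centralizer {s}).map θ := e ▸ Subgroup.mem_top _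
    obtain ⟨c, hc, e'⟩ := this
    have h1 := hQ (c⁻¹ * g) (by rw [MonoidHom.mem_ker, map_mul, map_inv, e', inv_mul_cancel]) s hs
    have h2 := Subgroup.mem_centralizer_singleton_iff.mp hc
    calc g * s = c * (c⁻¹ * g * s) := by group
      _ = c * s * (c⁻¹ * g) := by rw [h1, mul_assoc]
      _ = s * g := by rw [h2]; group
  have c8 : (C s).ncard = 8 := by
    by_contra hc
    have hne : C s ≠ S := fun e => hc (e ▸ h8)
    obtain ⟨s', h1, h2⟩ := Set.exists_of_ssubset (ssubset_of_subset_of_ne (sub s hs') hne)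
    have hd : Disjoint (C s) (C s') := Set.disjoint_left.mpr fun x a b => h2 (IsConj.trans a (IsConj.symm b))
    have h3 := Set.ncard_union_eq hd
    have h4 := Set.ncard_le_ncard (Set.union_subset (sub s hs') (sub s' h1))
    have := c7 s hs'
    have := c7 s' h1
    omega
  have h1 := ((Subgroup.centralizer {s}).map θ).card_mul_index
  rw [← ci s hs', c8, card] at h1
  have h2 : θ y ∈ (Subgroup.centralizer {s}).map θ := ⟨y, Subgroup.mem_centralizer_singleton_iff.mpr e, rfl⟩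
  have h3 := Subgroup.orderOf_dvd_natCard _ h2
  have h4 : orderOf (θ y) ∣ 2 := orderOf_dvd_of_pow_eq_one (by rw [pow_two, ← map_mul]; exact hy)
  rw [show Nat.card ((Subgroup.centralizer {s}).map θ) = 21 by omega] at h3
  exact orderOf_eq_one_iff.mp (Nat.eq_one_of_dvd_coprimes (by norm_num) h3 h4)

omit [Finite X] in
theorem Co.modA {A B : Subgroup X} (h : Co θ ρ A B) {a b : X} (ha : a ∈ B) (hb : b ∈ B) (e : ρ a = ρ b) :
    a⁻¹ * b ∈ A := by
  have m := B.mul_mem (B.inv_mem ha) hb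
  have h1 := h.add a ha _ m
  rw [mul_inv_cancel_left, e, left_eq_add] at h1
  exact (h.zero _ m).1 h1

theorem lin {N P W : Subgroup X} [N.Normal] (h : Co θ ρ P W) (hN : Nat.card N = 8) (hNP : N ≤ P)
    (hP2 : ∀ p ∈ P, p * p = 1) (hPW : ∀ p ∈ P, ∀ w ∈ W, p * w = w * p) (hQN : ∀ q ∈ θ.ker, ∀ n ∈ N, q * n = n * q)
    (hZ : ∀ n ∈ N, n ∈ Subgroup.center X → n = 1) (hs : ∀ w ∈ W, w * w ∈ N) (h1 : ∀ w ∈ W, w ∉ P → w * w ≠ 1) :
    (∀ a ∈ W, ∀ b ∈ W, a * b = b * a) ∧ ∀ q ∈ θ.ker, (∀ g, g * q * g⁻¹ * q⁻¹ ∈ W) →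
      (∀ w ∈ W, q * w * q⁻¹ * w⁻¹ ∈ N) → (∀ p ∈ P, q * p = p * q) →
      (∀ a ∈ W, q * a * q⁻¹ = a) ∨ (∀ a ∈ W, q * a * q⁻¹ = a⁻¹) := by
  choose l lW lρ using h.onto
  let s : V → X := fun v => l v * l v
  have sw : ∀ w ∈ W, s (ρ w) = w * w := fun w hw => by
    have m := h.modA (lW (ρ w)) hw (lρ _)
    obtain ⟨p, e⟩ : ∃ p, p = (l (ρ w))⁻¹ * w := ⟨_, rfl⟩
    rw [← e] at m
    have e' : w = l (ρ w) * p := by rw [e]; group
    calc s (ρ w) = l (ρ w) * l (ρ w) * (p * p) := by rw [hP2 p m, mul_one]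
      _ = l (ρ w) * (p * l (ρ w)) * p := by rw [hPW p m _ (lW _)]; group
      _ = l (ρ w) * p * (l (ρ w) * p) := by group
      _ = w * w := by rw [← e']
  have sN : ∀ v, s v ∈ N := fun v => hs _ (lW v)
  have se : ∀ g v, s ((θ g).1 *ᵥ v) = g * s v * g⁻¹ := fun g v => by
    conv_lhs => rw [← lρ v, ← h.eqv g _ (lW v), sw _ (h.nB.conj_mem _ (lW v) g)]
    simp only [s]; group
  have s0 : s 0 = 1 := hP2 _ ((h.zero _ (lW 0)).1 (lρ 0))
  have s1 : ∀ v, v ≠ 0 → s v ≠ 1 := fun v hv => h1 _ (lW v) fun m => hv ((lρ v).symm.trans ((h.zero _ (lW v)).2 m))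
  have st : ∀ u φ : V, φ ⬝ᵥ u = 0 → ∃ y : X, ∀ v, (θ y).1 *ᵥ v = tv u φ v := fun u φ e =>
    (ex_tv h.surj e).imp fun _ => And.right
  have si : Function.Injective s := fun a b e => by
    by_contra ab
    have a0 : a ≠ 0 := fun z => s1 b (fun z' => ab (z.trans z'.symm)) (by rw [← e, z, s0])
    have b0 : b ≠ 0 := fun z => s1 a a0 (by rw [e, z, s0])
    have all : ∀ c, c ≠ 0 → s c = s a := fun c c0 => by
      by_cases ac : a = c
      · rw [ac]
      obtain ⟨u, φ, k1, k2, k3⟩ := t2 a b c a0 b0 c0 ab ac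
      obtain ⟨y, hy⟩ := st u φ k1
      rw [← k3, ← hy, se, ← e, ← se, hy, k2]
    refine s1 a a0 (hZ _ (sN a) (Subgroup.mem_center_iff.mpr fun g => ?_))
    have := all ((θ g).1 *ᵥ a) fun z => a0 (inj g (z.trans (mulVec_zero _).symm))
    rw [se] at this
    exact mul_inv_eq_iff_eq_mul.mp this
  have ss : ∀ n ∈ N, ∃ c, s c = n := fun n hn => by
    have : Function.Bijective fun v => (⟨s v, sN v⟩ : N) :=
      (Nat.bijective_iff_injective_and_card _).mpr ⟨fun a b e => si (congrArg Subtype.val e), by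
        rw [hN, Nat.card_eq_fintype_card]; rfl⟩
    obtain ⟨c, e⟩ := this.2 ⟨n, hn⟩
    exact ⟨c, congrArg Subtype.val e⟩
  have sa : ∀ a b, s (a + b) = s a * s b := fun a b => by
    by_cases a0 : a = 0
    · rw [a0, zero_add, s0, one_mul]
    by_cases b0 : b = 0
    · rw [b0, add_zero, s0, mul_one]
    by_cases ab : a = b
    · rw [ab, (by decide : ∀ b : V, b + b = 0), s0, hP2 _ (hNP (sN b))]
    obtain ⟨c, e⟩ := ss _ (N.mul_mem (sN a) (sN b))
    by_contra hc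
    obtain ⟨u, φ, k1, k2, k3, k4⟩ := f2 a b c
      (fun z => ab (si (by
        rw [z, s0] at e
        exact (eq_inv_of_mul_eq_one_left e.symm).trans (inv_eq_of_mul_eq_one_left (hP2 _ (hNP (sN b)))))))
      (fun z => s1 b b0 (by rw [z] at e; exact left_eq_mul.mp e |>.symm ▸ rfl))
      (fun z => s1 a a0 (by rw [z] at e; exact right_eq_mul.mp e |>.symm ▸ rfl))
      (fun z => hc (z ▸ e))
    obtain ⟨y, hy⟩ := st u φ k1
    refine k4 (si ?_)
    rw [← hy, se, e, ← conj_mul, ← se, ← se, hy, hy, k2, k3]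
  have ab : ∀ a ∈ W, ∀ b ∈ W, a * b = b * a := fun a ha b hb => by
    have := sa (ρ a) (ρ b)
    rw [← h.add a ha b hb, sw _ (W.mul_mem ha hb), sw a ha, sw b hb] at this
    have e : a * (b * a) * b = a * (a * b) * b := by simpa only [mul_assoc] using this
    exact (mul_left_cancel (mul_right_cancel e)).symm
  refine ⟨ab, fun q _ k1 k2 k3 => ?_⟩
  let ψ : V → X := fun v => q * l v * q⁻¹ * (l v)⁻¹
  have pw : ∀ w ∈ W, ψ (ρ w) = q * w * q⁻¹ * w⁻¹ := fun w hw => by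
    have m := h.modA (lW (ρ w)) hw (lρ _)
    obtain ⟨p, e⟩ : ∃ p, p = (l (ρ w))⁻¹ * w := ⟨_, rfl⟩
    rw [← e] at m
    have e' : w = l (ρ w) * p := by rw [e]; group
    calc ψ (ρ w) = q * l (ρ w) * q⁻¹ * (q * p * q⁻¹) * p⁻¹ * (l (ρ w))⁻¹ := by rw [k3 p m]; simp only [ψ]; group
      _ = q * (l (ρ w) * p) * q⁻¹ * (l (ρ w) * p)⁻¹ := by group
      _ = _ := by rw [← e']
  have pe : ∀ g v, ψ ((θ g).1 *ᵥ v) = g * ψ v * g⁻¹ := fun g v => by
    have m := h.nB.conj_mem _ (lW v) g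
    conv_lhs => rw [← lρ v, ← h.eqv g _ (lW v), pw _ m]
    have e := ab _ (k1 g) _ (h.nB.conj_mem _ m q)
    calc q * (g * l v * g⁻¹) * q⁻¹ * (g * l v * g⁻¹)⁻¹
        = (q * (g * l v * g⁻¹) * q⁻¹) * (g * q * g⁻¹ * q⁻¹) * (g * q * g⁻¹ * q⁻¹)⁻¹ * (g * l v * g⁻¹)⁻¹ := by group
      _ = (g * q * g⁻¹ * q⁻¹) * (q * (g * l v * g⁻¹) * q⁻¹) * (g * q * g⁻¹ * q⁻¹)⁻¹ * (g * l v * g⁻¹)⁻¹ := by rw [e]
      _ = g * ψ v * g⁻¹ := by simp only [ψ]; group
  have p0 : ψ 0 = 1 := by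
    have := k3 _ ((h.zero _ (lW 0)).1 (lρ 0))
    simp only [ψ]; rw [this]; group
  obtain ⟨e0, he⟩ : ∃ e0 : V, e0 ≠ 0 := ⟨fun _ => 1, by decide⟩
  obtain ⟨c, hc⟩ := ss _ (k2 _ (lW e0))
  have hc' : s c = ψ e0 := hc
  have cc : c = 0 ∨ c = e0 := by
    by_contra hn
    rw [not_or] at hn
    obtain ⟨u, φ, j1, j2, j3⟩ := f1 e0 c hn.1 hn.2
    obtain ⟨y, hy⟩ := st u φ j1
    refine j3 (si ?_)
    rw [← hy, se, hc', ← pe, hy, j2]
  refine cc.imp (fun z a ha => ?_) (fun z a ha => ?_)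
  · have : ψ (ρ a) = 1 := by
      by_cases a0 : ρ a = 0
      · rw [a0, p0]
      obtain ⟨u, φ, j1, j2⟩ := t1 e0 _ he a0
      obtain ⟨y, hy⟩ := st u φ j1
      rw [← j2, ← hy, pe, ← hc', z, s0]; group
    rw [pw a ha] at this
    exact mul_inv_eq_one.mp this
  · have : ψ (ρ a) = s (ρ a) := by
      by_cases a0 : ρ a = 0
      · rw [a0, p0, s0]
      obtain ⟨u, φ, j1, j2⟩ := t1 e0 _ he a0
      obtain ⟨y, hy⟩ := st u φ j1
      rw [← j2, ← hy, pe, ← hc', z, se]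
    rw [pw a ha, sw a ha] at this
    have h4 := hP2 _ (hNP (hs a ha))
    rw [mul_inv_eq_iff_eq_mul.mp this]
    exact eq_inv_of_mul_eq_one_left (by simpa only [mul_assoc] using h4)

theorem pb {N P W : Subgroup X} [N.Normal] (h : Co θ ρ P W) {z : X} (hz : z * z = 1) (hzN : z ∉ N)
    (hN : Nat.card N = 8) (hP : ∀ p, p ∈ P ↔ p ∈ N ∨ z * p ∈ N) (hQ : ∀ q ∈ θ.ker, ∀ w ∈ W, q * w = w * q)
    (hN2 : ∀ n ∈ N, n * n = 1) (hs : ∀ w ∈ W, w * w ∈ N)
    (htr : ∀ w ∈ W, w ∉ P → ∃ g, g * w * g⁻¹ * (w * z)⁻¹ ∈ N) (hZ : ∀ s ∈ P, s ∈ Subgroup.center X → s = 1) :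
    False := by
  have nN : N.Normal := ‹_›
  have zP : z ∈ P := (hP z).2 (.inr (hz ▸ N.one_mem))
  have NP : N ≤ P := fun n hn => (hP n).2 (.inl hn)
  obtain ⟨w, wW, wρ⟩ := h.onto (Pi.single 0 1)
  have wP : w ∉ P := fun m => (by decide : (Pi.single 0 1 : V) ≠ 0) (wρ.symm.trans ((h.zero w wW).2 m))
  let S : Set X := {s | s ∈ P ∧ s ∉ N}
  have S8 : S.ncard = 8 := by
    have : S = (fun n => z * n) '' (N : Set X) := by
      ext s
      constructor
      · rintro ⟨a, b⟩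
        exact ⟨z * s, ((hP s).1 a).resolve_left b, show z * (z * s) = s by rw [← mul_assoc, hz, one_mul]⟩
      · rintro ⟨n, hn, rfl⟩
        exact ⟨P.mul_mem zP (NP hn), fun m => hzN (by simpa using N.mul_mem m (N.inv_mem hn))⟩
    rw [this, Set.ncard_image_of_injective _ (mul_right_injective z), ← hN, ← Nat.card_coe_set_eq]
    rfl
  have kerN : ∀ y ∈ θ.ker, y * w * y⁻¹ * w⁻¹ ∈ N := fun y hy => by
    rw [hQ y hy w wW]; simp
  have inv : ∀ y, y * y ∈ θ.ker → (θ y).1 *ᵥ Pi.single 0 1 = Pi.single 0 1 → y * w * y⁻¹ * w⁻¹ ∈ N := fun y h1 h2 => by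
    by_contra hn
    have m := h.nB.conj_mem w wW y
    have sP : y * w * y⁻¹ * w⁻¹ ∈ P := by
      have := h.nA.conj_mem _ (h.modA wW m (by rw [h.eqv y w wW, wρ, h2])) w
      simpa [mul_assoc] using this
    obtain ⟨s, e⟩ : ∃ s, s = y * w * y⁻¹ * w⁻¹ := ⟨_, rfl⟩
    rw [← e] at hn sP
    have s2 : s * s = 1 := by
      have a := ((hP s).1 sP).resolve_left hn
      have b := hN2 _ a
      have c := hQ z (h.leQ (h.le zP)) s (h.le sP)
      calc s * s = z * z * (s * s) := by rw [hz, one_mul]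
        _ = z * (z * s) * s := by group
        _ = z * (s * z) * s := by rw [c]
        _ = 1 := by rw [← b]; group
    have ys : y * s = s * y := by
      have a := hQ _ h1 w wW
      have b : y * s * y⁻¹ * s = 1 := by
        rw [e]
        calc y * (y * w * y⁻¹ * w⁻¹) * y⁻¹ * (y * w * y⁻¹ * w⁻¹) = (y * y * w) * (y * y)⁻¹ * w⁻¹ := by group
          _ = 1 := by rw [a]; group
      rw [← mul_inv_eq_iff_eq_mul, eq_inv_of_mul_eq_one_left b, inv_eq_of_mul_eq_one_left s2]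
    have := fpf h.surj S8 (fun g s hs => ⟨h.nA.conj_mem _ hs.1 g, fun m => hs.2 (by
        simpa [mul_assoc] using nN.conj_mem _ m g⁻¹)⟩) (fun q hq s hs => hQ q hq s (h.le hs.1))
      (fun s hs m => hs.2 (hZ s hs.1 m ▸ N.one_mem)) h1 ⟨sP, hn⟩ ys
    exact hn (e ▸ kerN y this)
  have canc : ∀ y g, y * w * y⁻¹ * w⁻¹ ∈ N → y * g * w * (y * g)⁻¹ * w⁻¹ ∈ N → g * w * g⁻¹ * w⁻¹ ∈ N :=
    fun y g a b => by
      have := nN.conj_mem _ (N.mul_mem b (N.inv_mem a)) y⁻¹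
      simpa [mul_assoc] using this
  obtain ⟨g, hg⟩ := htr w wW wP
  have g0 : (θ g).1 *ᵥ Pi.single 0 1 = Pi.single 0 1 := by
    have m := h.nB.conj_mem w wW g
    have zW := h.le zP
    have a := h.add _ (h.le (NP hg)) _ (W.mul_mem wW zW)
    rw [inv_mul_cancel_right, h.eqv g w wW, h.add w wW z zW, (h.zero _ (h.le (NP hg))).2 (NP hg), (h.zero z zW).2 zP,
      wρ, zero_add, add_zero] at a
    exact a
  obtain ⟨u, φ, j1, j2, j3⟩ := t2 (Pi.single 0 1) ((θ g).1 *ᵥ Pi.single 1 1) (Pi.single 1 1) (by decide)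
    (fun e => (by decide : (Pi.single 1 1 : V) ≠ 0) (inj g (e.trans (mulVec_zero _).symm))) (by decide)
    (fun e => (by decide : (Pi.single 0 1 : V) ≠ Pi.single 1 1) (inj g (g0.trans e))) (by decide)
  obtain ⟨y, y1, y2⟩ := ex_tv h.surj j1
  have a0 : (θ (y * g)).1 *ᵥ Pi.single 0 1 = Pi.single 0 1 := by rw [act_mul, g0, y2, j2]
  have a1 : (θ (y * g)).1 *ᵥ Pi.single 1 1 = Pi.single 1 1 := by rw [act_mul, y2, j3]
  obtain ⟨u', φ', i1, i2, i3, i4⟩ := t3 ((θ (y * g)).1 *ᵥ Pi.single 2 1)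
    (fun e => (by decide : (Pi.single 2 1 : V) ≠ 0) (inj (y * g) (e.trans (mulVec_zero _).symm)))
    (fun e => (by decide : (Pi.single 2 1 : V) ≠ Pi.single 0 1) (inj (y * g) (e.trans a0.symm)))
    (fun e => (by decide : (Pi.single 2 1 : V) ≠ Pi.single 1 1) (inj (y * g) (e.trans a1.symm)))
    (fun e => (by decide : (Pi.single 2 1 : V) ≠ Pi.single 0 1 + Pi.single 1 1)
      (inj (y * g) (e.trans (by beta_reduce; rw [mulVec_add, a0, a1]))))
  obtain ⟨y', y3, y4⟩ := ex_tv h.surj i1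
  have k := ker_of (θ := θ) (g := y' * (y * g)) (by rw [act_mul, a0, y4, i2]) (by rw [act_mul, a1, y4, i3])
    (by rw [act_mul, y4, i4])
  have r := canc y g (inv y y1 (by rw [y2, j2])) (canc y' _ (inv y' y3 (by rw [y4, i2])) (kerN _ k))
  have := nN.conj_mem _ (N.mul_mem (N.inv_mem hg) r) w⁻¹
  exact hzN (by simpa [mul_assoc] using this)

end Cfsg.Agent.L32
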