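import Cfsg.Agent.L32.A
import Cfsg.Agent.H22.Sr2
import Cfsg.Agent.H12.Lin
import Cfsg.Agent.H26.AutP
import Cfsg.Agent.H3.Action

/-! Coordinates, coprime action and small modules for extensions of a 2-group by a simple group of order 168. -/

set_option autoImplicit false
set_option linter.style.haveILetI false

namespace Cfsg.Agent.L32

open Matrix Subgroup

theorem e8' {V : Type*} [CommGroup V] [Module (ZMod 2) (Additive V)] (hc : Nat.card V = 8) :
    Nonempty (V ≃* (Fin 3 → Multiplicative (ZMod 2))) := by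
  have : Finite V := Nat.finite_of_card_ne_zero (by rw [hc]; decide)
  have h1 : Module.finrank (ZMod 2) (Additive V) = 3 := by
    have h2 := Module.natCard_eq_pow_finrank (K := ZMod 2) (V := Additive V)
    rw [Nat.card_congr Additive.toMul, hc, Nat.card_zmod] at h2
    exact (Nat.pow_right_injective le_rfl (h2.symm.trans (by rfl : 8 = 2 ^ 3)))
  exact ⟨(AddEquiv.toMultiplicativeRight (Module.finBasisOfFinrankEq (ZMod 2) (Additive V) h1).equivFun.toAddEquiv).trans
    (MulEquiv.funMultiplicative _ _)⟩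

theorem e8 {V : Type*} [g : Group V] (h : ∀ x : V, x * x = 1) (hc : Nat.card V = 8) :
    Nonempty (V ≃* (Fin 3 → Multiplicative (ZMod 2))) :=
  letI : CommGroup V := { g with
    mul_comm := fun a b => H22.Sr.comm_of_sq (by rw [sq, h]) (by rw [sq, h]) (by rw [sq, h]) }
  @e8' V _ (AddCommGroup.zmodModule fun x => (sq x.toMul).trans (h x.toMul)) hc

theorem card_gl3 : Nat.card (GL (Fin 3) (ZMod 2)) = 168 := by
  rw [Matrix.card_GL_field, Fin.prod_univ_three, ZMod.card]; rfl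

variable {X G : Type*} [Group X] [Group G]

/-- The standing hypotheses. -/
structure St (π : X →* G) (x : X) : Prop where
  simple : IsSimpleGroup G
  card : Nat.card G = 168
  surj : Function.Surjective π
  two : IsPGroup 2 π.ker
  sr : H11.SR 4 (⊤ : Subgroup X)
  ord : orderOf x = 7

variable {π : X →* G} {x : X}

theorem St.nx (h : St π x) : x ∉ π.ker := fun k => by
  obtain ⟨j, e⟩ := h.two ⟨x, k⟩
  have := orderOf_dvd_of_pow_eq_one (congrArg Subtype.val e)
  rw [h.ord] at this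
  exact absurd ((by decide : Nat.Prime 7).dvd_of_dvd_pow this) (by decide)

theorem St.dich (h : St π x) (K : Subgroup X) [n : K.Normal] (hK : π.ker ≤ K) : K = π.ker ∨ K = ⊤ := by
  have := h.simple
  have e : (K.map π).comap π = K := by rw [comap_map_eq, sup_eq_left.2 hK]
  rcases (n.map π h.surj).eq_bot_or_eq_top with k | k
  · exact .inl (by rw [← e, k]; rfl)
  · exact .inr (by rw [← e, k, comap_top])

theorem St.top (h : St π x) (K : Subgroup X) [K.Normal] (hK : π.ker ≤ K) {y : X} (hy : y ∉ π.ker) (k : y ∈ K) (g : X) :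
    g ∈ K := ((h.dich K hK).resolve_left fun e => hy (e ▸ k)).ge (mem_top g)

/-- The elements acting trivially on `B / A`. -/
def Tr (A B : Subgroup X) [A.Normal] : Subgroup X :=
  (centralizer (B.map (QuotientGroup.mk' A) : Set (X ⧸ A))).comap (QuotientGroup.mk' A)

instance (A B : Subgroup X) [A.Normal] [n : B.Normal] : (Tr A B).Normal :=
  haveI := n.map _ (QuotientGroup.mk'_surjective A)
  Normal.comap inferInstance _

theorem mem_Tr {A B : Subgroup X} [A.Normal] {g : X} : g ∈ Tr A B ↔ ∀ b ∈ B, g * b * g⁻¹ * b⁻¹ ∈ A := by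
  have k : ∀ b : X, g * b * g⁻¹ * b⁻¹ ∈ A ↔ (b : X ⧸ A) * g = g * b := fun b => by
    rw [← QuotientGroup.eq_one_iff]
    simp only [QuotientGroup.mk_mul, QuotientGroup.mk_inv]
    rw [mul_inv_eq_one, mul_inv_eq_iff_eq_mul, eq_comm]
  exact ⟨fun h b hb => (k b).2 (h _ ⟨b, hb, rfl⟩), fun h => by rintro _ ⟨b, hb, rfl⟩; exact (k b).1 (h b hb)⟩

theorem card_map_mk [Finite X] {A B : Subgroup X} [A.Normal] (h : A ≤ B) :
    Nat.card B = Nat.card A * Nat.card (B.map (QuotientGroup.mk' A)) := by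
  rw [← H22.Sr.card_comap, comap_map_eq, QuotientGroup.ker_mk', sup_eq_left.2 h]

theorem St.coord [Finite X] (h : St π x) {A B : Subgroup X} [nA : A.Normal] [nB : B.Normal] (hAB : A ≤ B)
    (hBQ : B ≤ π.ker) (h8 : Nat.card B = 8 * Nat.card A) (hsq : ∀ b ∈ B, b * b ∈ A) (hQ : π.ker ≤ Tr A B)
    (hn : x ∉ Tr A B) : ∃ θ ρ, Co θ ρ A B ∧ θ.ker = π.ker := by
  classical
  let q := QuotientGroup.mk' A
  haveI := nB.map _ (QuotientGroup.mk'_surjective A)
  have c8 : Nat.card (B.map q) = 8 := Nat.eq_of_mul_eq_mul_left Nat.card_pos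
    ((card_map_mk hAB).symm.trans (h8.trans (mul_comm _ _)))
  obtain ⟨e⟩ := e8 (V := B.map q) (by
    rintro ⟨_, b, hb, rfl⟩
    exact Subtype.ext ((QuotientGroup.eq_one_iff (b * b)).2 (hsq b hb))) c8
  let e' := e.trans (MulEquiv.funMultiplicative (Fin 3) (ZMod 2)).symm
  let L : MulAut (B.map q) → (Fin 3 → ZMod 2) →ₗ[ZMod 2] (Fin 3 → ZMod 2) := fun a =>
    (AddMonoidHom.toMultiplicative.symm (e'.toMonoidHom.comp (a.toMonoidHom.comp e'.symm.toMonoidHom))).toZModLinearMap 2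
  have hL : ∀ a v, L a (e' v).toAdd = (e' (a v)).toAdd := fun a v => by
    change (e' (a (e'.symm (e' v)))).toAdd = _
    rw [e'.symm_apply_apply]
  have ext : ∀ {f g : (Fin 3 → ZMod 2) →ₗ[ZMod 2] (Fin 3 → ZMod 2)},
      (∀ v, f (e' v).toAdd = g (e' v).toAdd) → f = g := fun k => LinearMap.ext fun y => by
    simpa using k (e'.symm (Multiplicative.ofAdd y))
  let M : MulAut (B.map q) →* Matrix (Fin 3) (Fin 3) (ZMod 2) :=
    { toFun := fun a => LinearMap.toMatrix' (L a)
      map_one' := by rw [← LinearMap.toMatrix'_id]; exact congrArg _ (ext fun v => hL 1 v)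
      map_mul' := fun a b => by
        rw [← LinearMap.toMatrix'_comp]
        exact congrArg _ (ext fun v => by rw [LinearMap.comp_apply, hL (a * b), hL b, hL a]; rfl) }
  let θ : X →* GL (Fin 3) (ZMod 2) := M.toHomUnits.comp ((MulAut.conjNormal (H := B.map q)).comp q)
  let ρ : X → Fin 3 → ZMod 2 := fun b => if k : q b ∈ B.map q then (e' ⟨q b, k⟩).toAdd else 0
  have hρ : ∀ b (hb : b ∈ B), ρ b = (e' ⟨q b, b, hb, rfl⟩).toAdd := fun b hb => dif_pos _
  have eqv : ∀ g, ∀ b ∈ B, ρ (g * b * g⁻¹) = (θ g).1 *ᵥ ρ b := fun g b hb => by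
    rw [hρ b hb, hρ _ (nB.conj_mem b hb g)]
    change _ = LinearMap.toMatrix' (L (MulAut.conjNormal (q g))) *ᵥ _
    rw [LinearMap.toMatrix'_mulVec, hL]
    rfl
  have zero : ∀ b ∈ B, ρ b = 0 ↔ b ∈ A := fun b hb => by
    rw [hρ b hb, toAdd_eq_zero, map_eq_one_iff _ e'.injective, Subtype.ext_iff]
    exact QuotientGroup.eq_one_iff b
  have add : ∀ a ∈ B, ∀ b ∈ B, ρ (a * b) = ρ a + ρ b := fun a ha b hb => by
    rw [hρ a ha, hρ b hb, hρ _ (B.mul_mem ha hb), ← toAdd_mul, ← map_mul]; rfl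
  have onto : ∀ y, ∃ b ∈ B, ρ b = y := fun y => by
    obtain ⟨⟨_, b, hb, rfl⟩, k⟩ := e'.surjective (Multiplicative.ofAdd y)
    exact ⟨b, hb, by rw [hρ b hb, k]; rfl⟩
  have kt : θ.ker = Tr A B := by
    ext g
    have k : ∀ b ∈ B, g * b * g⁻¹ * b⁻¹ ∈ A ↔ (θ g).1 *ᵥ ρ b = ρ b := fun b hb => by
      have a := add _ (B.mul_mem (nB.conj_mem b hb g) (B.inv_mem hb)) b hb
      rw [inv_mul_cancel_right, eqv g b hb] at a
      rw [← zero _ (B.mul_mem (nB.conj_mem b hb g) (B.inv_mem hb)), a, add_eq_right]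
    rw [mem_Tr, MonoidHom.mem_ker]
    refine ⟨fun e b hb => (k b hb).2 (by rw [e]; simp), fun e => Units.ext (Matrix.ext_iff_mulVec.2 fun y => ?_)⟩
    obtain ⟨b, hb, rfl⟩ := onto y
    rw [(k b hb).1 (e b hb)]; simp
  have kq : θ.ker = π.ker := kt.trans ((h.dich _ hQ).resolve_right fun e => hn (e ▸ mem_top x))
  refine ⟨θ, ρ, ⟨?_, kq ▸ h.two, nA, nB, hAB, kq ▸ hBQ, add, zero, onto, eqv⟩, kq⟩
  rw [← MonoidHom.range_eq_top, ← card_eq_iff_eq_top, ← index_ker, kq, index_ker, MonoidHom.range_eq_top.2 h.surj,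
    card_top, h.card, card_gl3]

end Cfsg.Agent.L32
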