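import Cfsg.Agent.H1.HallHigman
import Cfsg.Agent.H11.Three

/-! An element of order 7 whose centralizer in a normal 2-subgroup has index 8. -/

namespace Cfsg.Agent.L32

open Subgroup
open scoped commutatorElement Pointwise

variable {X : Type*} [Group X] [Finite X]

theorem ps_cnt {x : X} (hx : orderOf x = 7) (F : Set X) (hF : ∀ a ∈ F, x * a * x⁻¹ ∈ F) :
    F.ncard ≡ (F ∩ centralizer {x}).ncard [MOD 7] := by
  classical
  haveI : Fact (Nat.Prime 7) := ⟨by norm_num⟩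
  haveI := Fintype.ofFinite F
  let f : Function.End F := fun a => ⟨x * a * x⁻¹, hF a a.2⟩
  have hf : ∀ n a, ((f ^ n) a : X) = x ^ n * a * (x ^ n)⁻¹ := by
    intro n
    induction n with
    | zero => intro a; simp [Function.End.one_def]
    | succ n ih =>
      intro a
      rw [pow_succ']
      show x * ((f ^ n) a : X) * x⁻¹ = _
      rw [ih]; group
  have := Equiv.Perm.card_fixedPoints_modEq (f := f) (p := 7) (n := 1) (by
    funext a
    apply Subtype.ext
    rw [hf, pow_one, ← hx, pow_orderOf_eq_one]; simp [Function.End.one_def])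
  rw [← Nat.card_eq_fintype_card, ← Nat.card_eq_fintype_card] at this
  rw [← Nat.card_coe_set_eq, ← Nat.card_coe_set_eq]
  convert this using 1
  refine Nat.card_congr ⟨fun a => ⟨⟨a, a.2.1⟩, Subtype.ext ?_⟩, fun a => ⟨a.1, a.1.2, ?_⟩,
    fun _ => rfl, fun _ => rfl⟩
  · show x * a * x⁻¹ = a
    rw [← mem_centralizer_singleton_iff.1 a.2.2]; simp
  · exact mem_centralizer_singleton_iff.2
      (mul_inv_eq_iff_eq_mul.1 (congrArg Subtype.val a.2 : x * a * x⁻¹ = a)).symm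

theorem ps_cop {K : Subgroup X} (hK : IsPGroup 2 K) : (7 : ℕ).Coprime (Nat.card K) := by
  haveI : Fact (Nat.Prime 2) := ⟨Nat.prime_two⟩
  obtain ⟨n, hn⟩ := IsPGroup.iff_card.1 hK
  rw [hn]; exact Nat.Coprime.pow_right _ (by norm_num)

theorem ps_idx {Q K : Subgroup X} (hQ : IsPGroup 2 Q) {x : X} (hx : orderOf x = 7)
    (h8 : Nat.card Q = 8 * Nat.card (Q ⊓ centralizer {x} : Subgroup X)) (hK : K ≤ Q)
    (hi : ∀ a ∈ K, x * a * x⁻¹ ∈ K) (hn : ¬ K ≤ centralizer {x}) :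
    Nat.card K = 8 * Nat.card (K ⊓ centralizer {x} : Subgroup X) := by
  have e : ∀ L : Subgroup X, Nat.card (L ⊓ centralizer {x} : Subgroup X) *
      (centralizer {x}).relIndex L = Nat.card L := fun L => by
    rw [← inf_relIndex_left, H11.card_mul_relIndex inf_le_left]
  have e1 : (centralizer {x}).relIndex Q = 8 := by
    have := e Q
    rw [h8, mul_comm] at this
    exact Nat.eq_of_mul_eq_mul_right Nat.card_pos this
  have e2 := relIndex_le_of_le_right (H := centralizer {x}) hK (by rw [e1]; norm_num)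
  have e3 := ps_cnt hx K hi
  rw [← coe_inf, ← Nat.card_coe_set_eq, ← Nat.card_coe_set_eq] at e3
  have e4 : Nat.card (K ⊓ centralizer {x} : Subgroup X) * (centralizer {x}).relIndex K ≡
      Nat.card (K ⊓ centralizer {x} : Subgroup X) * 1 [MOD 7] := by rw [e K, mul_one]; exact e3
  have e5 := Nat.ModEq.cancel_left_of_coprime
    (ps_cop (hQ.to_le (inf_le_left.trans hK))) e4
  have e6 : (centralizer {x}).relIndex K ≠ 1 := fun h => hn (relIndex_eq_one.1 h)
  rw [← e K, mul_comm]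
  congr 1
  unfold Nat.ModEq at e5
  omega

theorem ps {Q : Subgroup X} [Q.Normal] (hQ : IsPGroup 2 Q) {x : X} (hx : orderOf x = 7)
    (h8 : Nat.card Q = 8 * Nat.card (Q ⊓ Subgroup.centralizer {x} : Subgroup X)) :
    ∃ N ≤ Q, Nat.card N = 8 ∧ (∀ n ∈ N, n*n = 1) ∧ (∀ n ∈ N, x*n*x⁻¹ ∈ N) ∧
      N ⊓ Subgroup.centralizer {x} = ⊥ ∧ (∀ q ∈ Q, ∀ n ∈ N, q*n = n*q) ∧
      N ⊔ (Q ⊓ Subgroup.centralizer {x}) = Q := by
  haveI : Fact (Nat.Prime 2) := ⟨Nat.prime_two⟩
  have hz : centralizer (zpowers x : Set X) = centralizer {x} := by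
    rw [zpowers_eq_closure, centralizer_closure]
  have hcm : ∀ U : Subgroup X, ⁅U, zpowers x⁆ = ⊥ ↔ U ≤ centralizer {x} := fun U => by
    rw [commutator_eq_bot_iff_le_centralizer, hz]
  obtain ⟨P, ⟨hPQ, hPn, hPc⟩, hmin⟩ := (wellFounded_lt (α := Subgroup X)).has_min
    {P | P ≤ Q ∧ zpowers x ≤ normalizer (P : Set X) ∧ ¬ P ≤ centralizer {x}}
    ⟨Q, le_rfl, by rw [normalizer_eq_top]; exact le_top, fun h => by
      rw [inf_eq_left.2 h] at h8
      have := Nat.card_pos (α := Q)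
      omega⟩
  have hP := hQ.to_le hPQ
  obtain ⟨h1, h2, h3, h4, -⟩ := H1.hall_higman_reduction hP hPn le_rfl le_normalizer
    (by rw [Nat.card_zpowers, hx]; norm_num) (by rwa [Ne, hcm])
    fun U hU hn => (hcm U).2 (by_contra fun e => hmin U ⟨hU.le.trans hPQ, hn, e⟩ hU)
  rw [hz] at h2
  have hPx : ∀ a ∈ P, x * a * x⁻¹ ∈ P := fun a ha =>
    (mem_normalizer_iff.1 (hPn (mem_zpowers x)) a).1 ha
  have hP8 := ps_idx hQ hx h8 hPQ hPx hPc
  rw [← h2] at h3 h4
  generalize hD : P ⊓ centralizer {x} = D at h2 h3 h4 hP8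
  have hDP : D ≤ P := hD ▸ inf_le_left
  have hDx : ∀ d ∈ D, d * x = x * d := fun d hd =>
    mem_centralizer_singleton_iff.1 (hD ▸ hd : d ∈ P ⊓ centralizer {x}).2
  have hsq : ∀ a ∈ P, a * a ∈ D := fun a ha => by
    rw [← sq, ← h3]; exact H1.pow_mem_map_frattini hP ha
  have hc : ∀ d ∈ D, ∀ a ∈ P, a * d = d * a := fun d hd a ha => h4 hd a ha
  have hcD : ∀ a ∈ P, ∀ b ∈ P, ⁅a, b⁆ ∈ D := fun a ha b hb =>
    h2 ▸ commutator_mem_commutator ha hb
  have hsw : ∀ a ∈ P, ∀ b ∈ P, a * b * (a * b) = a * a * (b * b) * ⁅b, a⁆ := fun a ha b hb => by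
    calc a * b * (a * b) = a * ⁅b, a⁆ * (a * (b * b)) := by rw [commutatorElement_def]; group
      _ = _ := by
        rw [mul_assoc, ← hc _ (hcD b hb a ha) _ (mul_mem ha (mul_mem hb hb))]; group
  have hD2 : ∀ d ∈ D, d * d = 1 := by
    let K : Subgroup X :=
      { carrier := {d | d ∈ D ∧ d * d = 1}
        one_mem' := ⟨one_mem _, one_mul 1⟩
        mul_mem' := fun {a b} ha hb => ⟨mul_mem ha.1 hb.1, by
          rw [Commute.mul_mul_mul_comm (hc a ha.1 b (hDP hb.1)), ha.2, hb.2, one_mul]⟩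
        inv_mem' := fun {a} ha => ⟨inv_mem ha.1, by rw [← mul_inv_rev, ha.2, inv_one]⟩ }
    have : ⁅P, P⁆ ≤ K := commutator_le.2 fun a ha b hb => ⟨hcD a ha b hb, by
      calc ⁅a, b⁆ * ⁅a, b⁆ = a * ⁅a, b⁆ * a⁻¹ * ⁅a, b⁆ := by rw [hc _ (hcD a ha b hb) a ha]; group
        _ = a * a * b * (a * a)⁻¹ * b⁻¹ := by rw [commutatorElement_def]; group
        _ = 1 := by rw [← hc _ (hsq a ha) b hb]; group⟩
    exact fun d hd => (this (h2 ▸ hd)).2
  have hσ : ∀ a ∈ P, a * a ≠ 1 → ∀ b ∈ P, b ∉ D → b * b = a * a := by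
    intro a ha a2
    let F : Set X := {b | b ∈ P ∧ b * b = a * a}
    have f1 : F ⊆ (P : Set X) \ D := fun b hb => ⟨hb.1, fun e => a2 (hb.2 ▸ hD2 b e)⟩
    have f2 := ps_cnt hx F fun b hb => ⟨hPx b hb.1, by
      rw [conj_mul, hb.2, ← hDx _ (hsq a ha)]; simp⟩
    rw [show F ∩ centralizer {x} = ∅ from Set.eq_empty_of_forall_notMem fun b hb =>
      (f1 hb.1).2 (hD ▸ ⟨hb.1.1, hb.2⟩), Set.ncard_empty] at f2
    have f3 : (QuotientGroup.mk : X → X ⧸ D) ⁻¹' (QuotientGroup.mk '' F) = F := by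
      refine Set.Subset.antisymm ?_ (Set.subset_preimage_image _ _)
      rintro b ⟨c, hc', e⟩
      have e' := QuotientGroup.eq.1 e
      obtain ⟨d, rfl⟩ : ∃ d, b = c * d := ⟨c⁻¹ * b, by simp⟩
      rw [inv_mul_cancel_left] at e'
      exact ⟨mul_mem hc'.1 (hDP e'), by
        rw [Commute.mul_mul_mul_comm (hc d e' c hc'.1).symm, hD2 d e', mul_one, hc'.2]⟩
    have f4 := QuotientGroup.card_preimage_mk D (QuotientGroup.mk '' F)
    rw [f3, Nat.card_coe_set_eq] at f4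
    have f5 : ((P : Set X) \ D).ncard = 7 * Nat.card D := by
      rw [Set.ncard_diff hDP, ← Nat.card_coe_set_eq, ← Nat.card_coe_set_eq]
      show Nat.card P - Nat.card D = _
      omega
    have f6 : 0 < F.ncard := (Set.ncard_pos).2 ⟨a, ha, rfl⟩
    obtain ⟨k, hk⟩ := (ps_cop (hP.to_le hDP)).dvd_of_dvd_mul_left
      (f4 ▸ (Nat.modEq_zero_iff_dvd.1 f2))
    have f7 := Set.eq_of_subset_of_ncard_le f1 (by
      rw [f5, f4, hk, mul_comm 7, ← mul_assoc]
      refine Nat.le_mul_of_pos_right _ (Nat.pos_of_ne_zero fun e => ?_)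
      rw [f4, hk, e] at f6; simp at f6)
    exact fun b hb hbD => (f7 ▸ ⟨hb, hbD⟩ : b ∈ F).2
  have hP2 : ∀ a ∈ P, a * a = 1 := by
    intro a ha
    by_contra a2
    have hs := hσ a ha a2
    have haD : a ∉ D := fun e => a2 (hD2 a e)
    -- every `b` outside `D ∪ a D` fails to commute with `a`
    have k : ∀ b ∈ P, b ∉ D → b * a ∉ D → ⁅a, b⁆ = a * a := fun b hb h1 h2 => by
      have := hsw b hb a ha
      rw [hs _ (mul_mem hb ha) h2, hs b hb h1, hD2 _ (hsq a ha), one_mul] at this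
      exact this.symm
    have big : ∀ T : Finset X, T.card ≤ 7 → ∃ b ∈ P, ∀ c ∈ T, b * c ∉ D := by
      intro T hT
      by_contra! hh
      have : (P : Set X) ⊆ ⋃ c ∈ T, (fun d => d * c⁻¹) '' D := fun b hb => by
        obtain ⟨c, hc, e⟩ := hh b hb
        exact Set.mem_biUnion hc ⟨_, e, by simp⟩
      have h1 := (Set.ncard_le_ncard this).trans (Finset.set_ncard_biUnion_le T _)
      rw [Finset.sum_congr rfl fun c _ => Set.ncard_image_of_injective _
        (mul_left_injective c⁻¹), Finset.sum_const, smul_eq_mul, ← Nat.card_coe_set_eq,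
        ← Nat.card_coe_set_eq] at h1
      have h2 : Nat.card P ≤ 7 * Nat.card D := h1.trans (Nat.mul_le_mul_right _ hT)
      have := Nat.card_pos (α := D)
      omega
    classical
    obtain ⟨b, hb, hb'⟩ := big {1, a} (Finset.card_le_two.trans (by norm_num))
    obtain ⟨c, hc', hc''⟩ := big {1, a, b, b * a} (Finset.card_le_four.trans (by norm_num))
    simp only [Finset.mem_insert, Finset.mem_singleton, forall_eq_or_imp, forall_eq,
      mul_one] at hb' hc''
    have e1 := k b hb hb'.1 hb'.2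
    have e2 := k c hc' hc''.1 hc''.2.1
    have e3 := k _ (mul_mem hc' hb) hc''.2.2.1 (by rw [mul_assoc]; exact hc''.2.2.2)
    apply a2
    rw [← e3, show ⁅a, c * b⁆ = ⁅a, c⁆ * (c * ⁅a, b⁆ * c⁻¹) by
      simp only [commutatorElement_def]; group, e1, e2, hc _ (hsq a ha) c hc',
      mul_inv_cancel_right, hD2 _ (hsq a ha)]
  have hDb : D = ⊥ := by
    rw [h2, eq_bot_iff, commutator_le]
    intro a ha b hb
    have := hsw b hb a ha
    rw [hP2 _ (mul_mem hb ha), hP2 a ha, hP2 b hb, one_mul, one_mul] at this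
    exact mem_bot.2 this.symm
  subst hDb
  rw [card_bot, mul_one] at hP8
  have hdec : ∀ q ∈ Q, ∃ p ∈ P, ∃ c ∈ Q ⊓ centralizer {x}, q = p * c := by
    let f : P × (Q ⊓ centralizer {x} : Subgroup X) → Q := fun y =>
      ⟨y.1 * y.2, mul_mem (hPQ y.1.2) y.2.2.1⟩
    have : Function.Bijective f := (Nat.bijective_iff_injective_and_card f).2 ⟨?_, by
      rw [Nat.card_prod, hP8, h8]⟩
    · intro q hq
      obtain ⟨y, hy⟩ := this.2 ⟨q, hq⟩
      exact ⟨y.1, y.1.2, y.2, y.2.2, (congrArg Subtype.val hy).symm⟩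
    · rintro ⟨a, c⟩ ⟨a', c'⟩ e
      have e1 : (a : X) * c = a' * c' := congrArg Subtype.val e
      have e2 : (a' : X)⁻¹ * a = c' * (c : X)⁻¹ := by
        rw [inv_mul_eq_iff_eq_mul, ← mul_assoc, ← e1]; simp
      have e3 : (a' : X)⁻¹ * a ∈ P ⊓ centralizer {x} :=
        ⟨P.mul_mem (P.inv_mem a'.2) a.2,
          e2 ▸ (centralizer {x}).mul_mem c'.2.2 ((centralizer {x}).inv_mem c.2.2)⟩
      rw [hD, mem_bot] at e3
      rw [e3, eq_mul_inv_iff_mul_eq, one_mul] at e2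
      exact Prod.ext (Subtype.ext (inv_mul_eq_one.1 e3).symm) (Subtype.ext e2)
  have hQP : ⁅Q, zpowers x⁆ = P := by
    refine le_antisymm (commutator_le.2 fun q hq y hy => ?_) (h1 ▸ commutator_mono hPQ le_rfl)
    obtain ⟨p, hp, c, hc, rfl⟩ := hdec q hq
    have : y * c = c * y := (hz ▸ hc.2 : c ∈ centralizer (zpowers x : Set X)) y hy
    rw [show ⁅p * c, y⁆ = p * (c * y) * c⁻¹ * p⁻¹ * y⁻¹ by rw [commutatorElement_def]; group,
      ← this, show p * (y * c) * c⁻¹ * p⁻¹ * y⁻¹ = p * (y * p⁻¹ * y⁻¹) by group]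
    exact mul_mem hp ((mem_normalizer_iff.1 (hPn hy) _).1 (inv_mem hp))
  have hn : Q ≤ normalizer (P : Set X) := hQP ▸ normalizer_commutator_ge_left _ _
  obtain ⟨w, w1, w2, -, w4⟩ := H11.exists_central_mod_in (N := ⊥) hQ hPQ
    (by rw [normalizer_eq_top]; exact le_top) hn fun h => hPc (h.trans bot_le)
  have hK := ps_idx (K := P ⊓ centralizer Q) hQ hx h8 (inf_le_left.trans hPQ)
    (fun a ha => ⟨hPx a ha.1, fun q hq => by
      have := ha.2 _ (Normal.conj_mem' inferInstance q hq x)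
      calc q * (x * a * x⁻¹) = x * (x⁻¹ * q * x * a) * x⁻¹ := by group
        _ = _ := by rw [this]; group⟩)
    (fun h => w2 (hD ▸ ⟨w1, h ⟨w1, fun q hq => by
      simpa [mul_inv_eq_iff_eq_mul] using w4 q hq⟩⟩))
  have hK2 : P ⊓ centralizer Q = P := eq_of_le_of_card_ge inf_le_left (by
    rw [hK, hP8]; exact Nat.le_mul_of_pos_right _ Nat.card_pos)
  refine ⟨P, hPQ, hP8, hP2, hPx, hD, fun q hq n hn => (hK2.ge hn).2 q hq,
    le_antisymm (sup_le hPQ inf_le_left) fun q hq => ?_⟩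
  obtain ⟨p, hp, c, hc, rfl⟩ := hdec q hq
  exact mul_mem_sup hp hc

end Cfsg.Agent.L32
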