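import Cfsg.Agent.L32.Z0

/-! The homocyclic case `Z4 × Z4 × Z4` does not occur. -/

set_option autoImplicit false

namespace Cfsg.Agent.L32

open Matrix

namespace PZ

variable {X : Type*} [Group X] {E : Type*} [AddCommGroup E]

/-- The group-level data. -/
structure Hy (θ : X →* GL (Fin 3) (ZMod 2)) (N M : Subgroup X) (ι : E → X) (α : X → E →+ E)
    (r : E →+ V) (t : X) (v : E) : Prop extends Mo r v where
  two : IsPGroup 2 θ.ker
  nM : M.Normal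
  leQ : M ≤ θ.ker
  inj : Function.Injective ι
  add : ∀ a b, ι (a + b) = ι a * ι b
  mem : ∀ a, ι a ∈ M
  rng : ∀ x ∈ M, ∃ a, ι a = x
  leN : N ≤ M
  memN : ∀ a, ι a ∈ N ↔ r a = 0
  act : ∀ g a, ι (α g a) = g * ι a * g⁻¹
  eqv : ∀ g a, r (α g a) = (θ g).1 *ᵥ r a
  hq : ∀ q ∈ θ.ker, (∀ a ∈ M, q * a * q⁻¹ = a) ∨ (∀ a ∈ M, q * a * q⁻¹ = a⁻¹)
  ht : ∀ g, ∀ q ∈ θ.ker, g * q * g⁻¹ * q⁻¹ ∈ M
  hC : ∀ q ∈ θ.ker, q * q ∈ M → ∃ m ∈ M, q * m * (q * m) = 1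
  hz : ∀ y, y ∉ θ.ker → y * y ∈ θ.ker → (∀ a ∈ M, y * y * a = a * (y * y)) →
    y * y * (y * y) = 1 → y * y ∈ M
  t3 : t * t * t = 1
  θt : θ t = T
  tv : α t v = v

/-- A lift of the transvection whose product with `t` has order three. -/
def Tr (θ : X →* GL (Fin 3) (ZMod 2)) (t u : X) : Prop := θ u = Ua ∧ u * t * (u * t) * (u * t) = 1

namespace Hy
variable {θ : X →* GL (Fin 3) (ZMod 2)} {N M : Subgroup X} {ι : E → X} {α : X → E →+ E}
  {r : E →+ V} {t : X} {v : E} (h : Hy θ N M ι α r t v)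
include h

theorem zero : ι 0 = 1 := by simpa using h.add 0 0
theorem neg (a : E) : ι (-a) = (ι a)⁻¹ :=
  eq_inv_of_mul_eq_one_left (by rw [← h.add, neg_add_cancel, h.zero])
theorem sub (a b : E) : ι (a - b) = ι a * (ι b)⁻¹ := by rw [sub_eq_add_neg, h.add, h.neg]
theorem comm (a b : E) : ι a * ι b = ι b * ι a := by rw [← h.add, ← h.add, add_comm]
theorem amul (g k : X) (a : E) : α (g * k) a = α g (α k a) :=
  h.inj (by rw [h.act, h.act, h.act]; group)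
theorem aone (a : E) : α 1 a = a := h.inj (by rw [h.act]; group)
theorem afix {g : X} {a : E} : α g a = a ↔ g * ι a = ι a * g := by
  rw [← h.inj.eq_iff, h.act, mul_inv_eq_iff_eq_mul]
theorem tt (a : E) : α t (α t (α t a)) = a := by rw [← h.amul, ← h.amul, h.t3, h.aone]

theorem eqa {u : X} (hu : θ u = Ua) (a : E) : r (α u a) = Ua.1 *ᵥ r a := by rw [h.eqv, hu]

theorem ker2 {u : X} (hu : θ u = Ua) : u * u ∈ θ.ker := by rw [MonoidHom.mem_ker, map_mul, hu, g3]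

theorem z1 {u : X} (hu : θ u = Ua) (a : E) : α u (α u a) = a := by
  rcases h.hq _ (h.ker2 hu) with e | e
  · exact h.inj (by rw [← h.amul, h.act, e _ (h.mem a)])
  · exact absurd (fun a => h.inj (by rw [← h.amul, h.act, e _ (h.mem a), h.neg]))
      (h.m1 (h.eqa hu))

theorem z1' {u : X} (hu : θ u = Ua) : ∀ a ∈ M, u * u * a = a * (u * u) := by
  intro a ha
  obtain ⟨a, rfl⟩ := h.rng a ha
  exact h.afix.1 (by rw [h.amul, h.z1 hu])

theorem ft {u : X} (hu : Tr θ t u) (a : E) : α u (α t (α u (α t (α u (α t a))))) = a := by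
  simp only [← h.amul, ← mul_assoc]
  have := hu.2
  simp only [← mul_assoc] at this
  rw [this, h.aone]

theorem z2 {u : X} (hu : Tr θ t u) : α u v = v := by
  refine (h.m2 (h.eqa hu.1) (h.z1 hu.1)).resolve_right fun e => h.v2 ?_
  have := h.ft hu v
  simp only [h.tv, e, map_neg, neg_neg] at this
  linear_combination (norm := abel) -this

theorem tiv : α t⁻¹ v = v := by
  conv_lhs => rw [← h.tv, ← h.amul, inv_mul_cancel, h.aone]

theorem z2' {u : X} (hu : Tr θ t u) : α (t * u * t⁻¹) v = v := by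
  rw [h.amul, h.amul, h.tiv, h.z2 hu, h.tv]

theorem θ' {u : X} (hu : θ u = Ua) : θ (t * u * t⁻¹) = Ub := by
  rw [map_mul, map_mul, map_inv, h.θt, hu, g1]

theorem prod {u : X} (hu : Tr θ t u) :
    u * (t * u * t⁻¹) * (t * (t * u * t⁻¹) * t⁻¹) = 1 := by
  calc _ = u * t * (u * t) * (u * t) * (t * t * t)⁻¹ := by group
    _ = 1 := by rw [hu.2, h.t3]; simp

theorem kfix {u : X} (hu : Tr θ t u) :
    t * u * t⁻¹ * u * t * (u * (t * u * t⁻¹) * u⁻¹ * (t * u * t⁻¹)⁻¹) =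
      u * (t * u * t⁻¹) * u⁻¹ * (t * u * t⁻¹)⁻¹ * (t * u * t⁻¹ * u * t) := by
  have e := eq_inv_of_mul_eq_one_right (h.prod hu)
  calc _ = t * u * t⁻¹ * u * ((t * u * t⁻¹) * (t * (t * u * t⁻¹) * t⁻¹) * (t * u * t⁻¹)⁻¹ *
        (t * (t * u * t⁻¹) * t⁻¹)⁻¹) * t := by group
    _ = _ := by rw [e]; group

theorem θg {u : X} (hu : θ u = Ua) : θ (t * u * t⁻¹ * u * t) = Ub * Ua * T := by
  rw [map_mul, map_mul, h.θ' hu, hu, h.θt]

theorem kker {u : X} (hu : θ u = Ua) : u * (t * u * t⁻¹) * u⁻¹ * (t * u * t⁻¹)⁻¹ ∈ θ.ker := by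
  rw [MonoidHom.mem_ker, map_mul, map_mul, map_mul, map_inv, map_inv, h.θ' hu, hu, g4]

theorem modM {u : X} (hu : Tr θ t u) : u * u * (u * u) ∈ M ∧
    u * (t * u * t⁻¹) * u⁻¹ * (t * u * t⁻¹)⁻¹ * (u * u)⁻¹ ∈ M := by
  haveI := h.nM
  let π := QuotientGroup.mk' M
  have hπ : ∀ x, π x = 1 ↔ x ∈ M := fun x => QuotientGroup.eq_one_iff x
  have e1 : π t * (π u * π u) * (π t)⁻¹ = π u * π u := by
    have := (hπ _).2 (h.ht t _ (h.ker2 hu.1))
    simp only [map_mul, map_inv] at this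
    exact mul_inv_eq_one.1 (by simpa only [_root_.mul_inv_rev] using this)
  obtain ⟨k, hk⟩ := h.two ⟨_, h.ker2 hu.1⟩
  have hk' : (u * u) ^ 2 ^ k = 1 := congrArg Subtype.val hk
  have e2 : π t * π u * (π t)⁻¹ * (π t * π u * (π t)⁻¹) = π u * π u := by rw [← e1]; group
  obtain ⟨a, b⟩ := cen3 (x := π u) (y := π t * π u * (π t)⁻¹)
    (w := π t * (π t * π u * (π t)⁻¹) * (π t)⁻¹) (z := π u * π u) (k := k)
    (by simpa only [map_mul, map_inv, map_one] using congrArg π (h.prod hu)) rfl e2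
    (by rw [← e1, ← e2]; group) (by rw [← map_mul, ← map_pow, hk', map_one])
  refine ⟨(hπ _).1 (by simpa only [map_mul] using a), (hπ _).1 ?_⟩
  simp only [map_mul, map_inv]
  rw [b]; group

theorem sqc {q : X} (hq : q ∈ θ.ker) (hc : ∀ a ∈ M, q * a = a * q) (g : X) :
    g * q * g⁻¹ * q⁻¹ * (g * q * g⁻¹ * q⁻¹) = g * (q * q) * g⁻¹ * (q * q)⁻¹ := by
  have e := hc _ (h.ht g q hq)
  calc _ = g * q * g⁻¹ * q⁻¹ * (q * (g * q * g⁻¹ * q⁻¹) * q) * (q * q)⁻¹ := by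
        rw [e]; group
    _ = _ := by group

theorem z3 {u : X} (hu : Tr θ t u) : u * u ∈ M := by
  obtain ⟨h1, h2⟩ := h.modM hu
  have hc := h.z1' hu.1
  obtain ⟨m, hm, e1⟩ := h.hC _ (h.ker2 hu.1) h1
  obtain ⟨m, rfl⟩ := h.rng m hm
  obtain ⟨a, ha⟩ := h.rng _ h2
  have kf := h.kfix hu
  have kk := h.kker hu.1
  have hid : u * u * (t * u * t⁻¹ * (u * u) * (t * u * t⁻¹)⁻¹)⁻¹ =
      u * (u * (t * u * t⁻¹) * u⁻¹ * (t * u * t⁻¹)⁻¹) * u⁻¹ *
        (u * (t * u * t⁻¹) * u⁻¹ * (t * u * t⁻¹)⁻¹)⁻¹ *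
        ((u * (t * u * t⁻¹) * u⁻¹ * (t * u * t⁻¹)⁻¹) * (u * (t * u * t⁻¹) * u⁻¹ * (t * u * t⁻¹)⁻¹)) := by
    group
  have hg := h.θg hu.1
  have hb := h.θ' hu.1
  have huu : u * (u * u * (u * u)) = u * u * (u * u) * u := by group
  have hker := h.ker2 hu.1
  have hy : ∀ e, u * ι e * (u * ι e) = u * u * ι (α u⁻¹ e + e) := fun e => by
    rw [h.add, h.act]; group
  have hui : ∀ e, α u⁻¹ e = α u e := fun e => by
    conv_lhs => rw [← h.z1 hu.1 e, ← h.amul, inv_mul_cancel, h.aone]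
  generalize u * (t * u * t⁻¹) * u⁻¹ * (t * u * t⁻¹)⁻¹ = κ at *
  generalize t * u * t⁻¹ * u * t = g at *
  generalize t * u * t⁻¹ = u' at *
  generalize hζ : u * u = ζ at *
  have e2 : ζ * ζ = ι (m + m) := by
    have : ζ * ζ * ι (m + m) = 1 := by
      rw [← e1, h.add, mul_assoc ζ (ι m), ← mul_assoc (ι m), ← hc _ (h.mem m)]; group
    rw [eq_inv_of_mul_eq_one_left this, ← h.neg, neg_eq_of_add_eq_zero_left (h.four m)]
  have e3 : κ = ι a * ζ := by rw [ha]; group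
  have kc : ∀ b ∈ M, κ * b = b * κ := fun b hb => by
    obtain ⟨b, rfl⟩ := h.rng b hb
    rw [e3, mul_assoc, hc _ (h.mem b), ← mul_assoc, h.comm, mul_assoc]
  have e4 : κ * κ = ι (a + m + (a + m)) := by
    rw [show a + m + (a + m) = a + a + (m + m) by abel, h.add _ (m + m), ← e2, h.add, e3,
      mul_assoc (ι a) ζ, ← mul_assoc ζ, hc _ (h.mem a)]; group
  have l1 : L (r (a + m)) := d3 _ (by
    rw [← hg, ← h.eqv, ← h.sq_eq, ← map_add, h.afix, ← e4, ← mul_assoc, kf, mul_assoc, kf,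
      mul_assoc])
  have e5 : u * (κ * κ) * u⁻¹ = κ * κ := by
    rw [e4, ← h.act, Mo.fixZ (h.z2 hu) (h.dblZ l1)]
  obtain ⟨b, hb1⟩ := h.rng _ (h.ht u κ kk)
  have e6 : b + b = 0 := h.inj (by rw [h.add, hb1, h.sqc kk kc, e5, h.zero, mul_inv_cancel])
  obtain ⟨c, hc1⟩ := h.rng _ (h.ht u' ζ hker)
  have e7 : -c = b + (a + m + (a + m)) := h.inj (by
    rw [h.neg, h.add, hb1, ← e4, ← hid, hc1]; group)
  have e8 : c + c = 0 := by
    have := h.four (a + m)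
    linear_combination (norm := abel) -e7 - e7 - e6 - this
  have e9 : u' * (ζ * ζ) * u'⁻¹ * (ζ * ζ)⁻¹ = 1 := by
    rw [← h.sqc hker hc, ← hc1, ← h.add, e8, h.zero]
  have l2 : L (r m) := d2 _ (by rw [← h.eqa hu.1, ← h.sq_eq, ← map_add, h.afix, ← e2, huu]) (by
    rw [← hb, ← h.eqv, ← h.sq_eq, ← map_add, h.afix, ← e2, ← mul_inv_eq_iff_eq_mul,
      ← mul_inv_eq_one, e9])
  obtain ⟨x, hx⟩ := d7 _ l2
  obtain ⟨e, rfl⟩ := h.onto x
  have hθ : θ (u * ι e) = Ua := by rw [map_mul, hu.1, h.leQ (h.mem e), mul_one]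
  have := h.hz (u * ι e) (fun e => g6 (hθ.symm.trans e)) (h.ker2 hθ) (h.z1' hθ) (by
    rw [hy, mul_assoc, ← mul_assoc (ι _), ← hc _ (h.mem _), mul_assoc, ← h.add, ← mul_assoc, e2,
      ← h.add, h.sq_eq.2 (show r (α u⁻¹ e + e) = r m by rw [hui, map_add, h.eqa hu.1, hx]),
      h.four, h.zero])
  rw [hy] at this
  simpa using M.mul_mem this (M.inv_mem (h.mem (α u⁻¹ e + e)))

theorem z4 {u : X} (hu : Tr θ t u) :
    ∃ y, Tr θ t y ∧ ∃ c ∈ AddSubgroup.zmultiples v, ι c = y * y := by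
  obtain ⟨z, hz⟩ := h.rng _ (h.z3 hu)
  obtain ⟨k, hk⟩ := h.rng (u * (t * u * t⁻¹) * u⁻¹ * (t * u * t⁻¹)⁻¹) (by
    have := M.mul_mem (h.modM hu).2 (h.z3 hu)
    rwa [inv_mul_cancel_right] at this)
  have hui : ∀ e, α u⁻¹ e = α u e := fun e => by
    conv_lhs => rw [← h.z1 hu.1 e, ← h.amul, inv_mul_cancel, h.aone]
  have kZ : k ∈ AddSubgroup.zmultiples v := h.m3 (g := α (t * u * t⁻¹ * u * t))
    (fun e => by rw [h.eqv, h.θg hu.1]) d3
    (by rw [h.amul, h.amul, h.tv, h.z2 hu, h.z2' hu]) (by rw [h.afix, hk, h.kfix hu])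
  have fz : α u z = z := by rw [h.afix, hz, mul_assoc]
  have e1 : α (t * u * t⁻¹) z - z = -(α u k + k) := h.inj (by
    rw [sub_eq_add_neg, add_comm, ← neg_neg (-z + _), h.neg, h.neg (α u k + k), neg_add, neg_neg,
      h.add, h.add, h.neg, h.act, h.act, hk, hz]; group)
  have l1 : L (r z) := d2 _ (by rw [← h.eqa hu.1, fz]) (by
    rw [← h.θ' hu.1, ← h.eqv]
    refine h.m4 (fun e => ?_) (h.z2' hu) ?_
    · simp only [h.amul]
      rw [← h.amul t⁻¹ t, inv_mul_cancel, h.aone, h.z1 hu.1, ← h.amul, mul_inv_cancel, h.aone]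
    · rw [e1, Mo.fixZ (h.z2 hu) kZ]
      exact neg_mem (add_mem kZ kZ))
  obtain ⟨m, hm⟩ := h.m8 (h.eqa hu.1) (fun e => by rw [h.eqv, h.θt]) (h.z1 hu.1) (h.z2 hu)
    (h.ft hu) h.tt h.tv l1 fz
  have ey : (ι m)⁻¹ * u * (t * ι m * t⁻¹) = u * ι (α t m - α u m) := by
    rw [sub_eq_add_neg, add_comm, ← hui, h.add, h.neg, h.act, h.act]; group
  refine ⟨(ι m)⁻¹ * u * (t * ι m * t⁻¹), ⟨?_, ?_⟩, _, hm, ?_⟩
  · rw [ey, map_mul, hu.1, h.leQ (h.mem _), mul_one]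
  · calc _ = (ι m)⁻¹ * (u * t * (u * t) * (u * t)) * ι m := by group
      _ = 1 := by rw [hu.2]; group
  · rw [ey, h.add, h.add, hz, ← hui (α t m - α u m), h.act]; group

theorem z5 [Finite X] (hS : H11.SR 4 (⊤ : Subgroup X)) (hN : Nat.card N = 8) {u : X}
    (hu : Tr θ t u) : False := by
  obtain ⟨y, hy, c, hc, e⟩ := h.z4 hu
  have e1 : t * (y * y) * t⁻¹ = y * y := by rw [← e, ← h.act, Mo.fixZ h.tv hc]
  have e2 : t * y * t⁻¹ * (t * y * t⁻¹) = y * y := by rw [← e1]; group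
  have e3 : t * (t * y * t⁻¹) * t⁻¹ * (t * (t * y * t⁻¹) * t⁻¹) = y * y := by
    rw [← e1, ← e2]; group
  obtain ⟨k, hk⟩ := h.two ⟨_, h.ker2 hy.1⟩
  obtain ⟨e4, -⟩ := cen3 (h.prod hy) rfl e2 e3 (k := k) (congrArg Subtype.val hk)
  let K := Subgroup.zpowers (ι (v + v))
  have hK : ∀ a, a = 0 ∨ a = v + v → ι a ∈ K := by
    rintro _ (rfl | rfl)
    · rw [h.zero]; exact one_mem _
    · exact Subgroup.mem_zpowers _
  let A : Subgroup X :=
    { carrier := {x | ∃ a, ι a = x ∧ L (r a)}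
      one_mem' := ⟨0, h.zero, Or.inl (map_zero r)⟩
      mul_mem' := by
        rintro _ _ ⟨a, rfl, ha⟩ ⟨b, rfl, hb⟩
        exact ⟨a + b, h.add a b, by rw [map_add]; exact d8 _ _ ha hb⟩
      inv_mem' := by
        rintro _ ⟨a, rfl, ha⟩
        exact ⟨-a, h.neg a, by rwa [map_neg, vneg]⟩ }
  have hNA : N ≤ A := fun n hn => by
    obtain ⟨a, rfl⟩ := h.rng n (h.leN hn)
    exact ⟨a, rfl, Or.inl ((h.memN a).1 hn)⟩
  have i2 : N.relIndex A = 2 := by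
    rw [Subgroup.relIndex_eq_two_iff]
    refine ⟨ι v, ⟨v, rfl, Or.inr h.rv⟩, ?_⟩
    rintro _ ⟨a, rfl, ha⟩
    rw [← h.add, h.memN, h.memN, map_add, h.rv]
    rcases ha with ha | ha <;> rw [ha] <;> decide
  have cA : Nat.card A = 16 := by
    have := (N.subgroupOf A).card_mul_index
    rw [Nat.card_congr (Subgroup.subgroupOfEquivOfLe hNA).toEquiv, hN] at this
    rw [← this]; change 8 * N.relIndex A = 16; rw [i2]
  have cK : Nat.card K = 2 := by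
    haveI : Fact (Nat.Prime 2) := ⟨Nat.prime_two⟩
    rw [Nat.card_zpowers]
    exact orderOf_eq_prime (by rw [sq, ← h.add, h.four, h.zero])
      fun e => h.v2 (h.inj (e.trans h.zero.symm))
  have yK : y * y ∈ K := by
    have e5 : c + c = 0 := h.inj (by rw [h.add, e, e4, h.zero])
    obtain ⟨m, rfl⟩ := h.s2 c ((h.s1 c).1 e5)
    rw [← e]
    exact hK _ (h.dbl (h.halfZ hc))
  refine g32 θ hS (K := K) (A := A) (y := y) (y' := t * y * t⁻¹)
    (Subgroup.zpowers_le.2 ⟨_, rfl, Or.inl (by rw [map_add, vv])⟩) ?_ (by rw [cA, cK]) ?_ ?_ ?_ yK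
    (e2 ▸ yK) ?_ (hy.1 ▸ g6) (h.θ' hy.1 ▸ g7) (by rw [map_mul, hy.1, h.θ' hy.1]; exact g8)
  · rintro _ ⟨a, rfl, -⟩
    exact h.leQ (h.mem a)
  · rintro _ ⟨a, rfl, ha⟩
    rw [← h.add]; exact hK _ (h.dbl ha)
  · rintro _ ⟨a, rfl, ha⟩
    rw [← h.act, ← h.sub]; exact hK _ (h.m7 (h.eqa hy.1) d1a (h.z2 hy) ha)
  · rintro _ ⟨a, rfl, ha⟩
    rw [← h.act, ← h.sub]
    exact hK _ (h.m7 (fun e => by rw [h.eqv, h.θ' hy.1]) d1b (h.z2' hy) ha)
  · rw [eq_inv_of_mul_eq_one_left (h.prod hy), ← _root_.mul_inv_rev, e3]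
    exact inv_mem yK

end Hy

end PZ

open PZ in
theorem pz {X : Type*} [Group X] [Finite X] {θ : X →* GL (Fin 3) (ZMod 2)} {ρ : X → Fin 3 → ZMod 2}
    {N M : Subgroup X} (h : Co θ ρ N M) (hS : H11.SR 4 (⊤ : Subgroup X)) (hN : Nat.card N = 8)
    (hc : ∀ a ∈ M, ∀ b ∈ M, a * b = b * a) (hs : ∀ a ∈ M, a * a = 1 ↔ a ∈ N)
    (hs2 : ∀ a ∈ M, a * a ∈ N)
    (hq : ∀ q ∈ θ.ker, (∀ a ∈ M, q * a * q⁻¹ = a) ∨ (∀ a ∈ M, q * a * q⁻¹ = a⁻¹))
    (ht : ∀ g, ∀ q ∈ θ.ker, g * q * g⁻¹ * q⁻¹ ∈ M)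
    (hC : ∀ q ∈ θ.ker, q * q ∈ M → ∃ m ∈ M, q * m * (q * m) = 1)
    (hz : ∀ y, y ∉ θ.ker → y * y ∈ θ.ker → (∀ a ∈ M, y * y * a = a * (y * y)) →
      y * y * (y * y) = 1 → y * y ∈ M) : False := by
  haveI := h.nB
  letI : CommGroup M := { (inferInstance : Group M) with
    mul_comm := fun a b => Subtype.ext (hc _ a.2 _ b.2) }
  let ι : Additive M → X := fun a => (a.toMul : M)
  let α : X → Additive M →+ Additive M := fun g =>
    MonoidHom.toAdditive (MulAut.conjNormal (H := M) g).toMonoidHom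
  let r : Additive M →+ V := AddMonoidHom.mk' (fun a => ρ (ι a))
    fun a b => h.add _ a.toMul.2 _ b.toMul.2
  have inj : Function.Injective ι := fun a b e => Additive.toMul.injective (Subtype.ext e)
  have onto : Function.Surjective r := fun y => by
    obtain ⟨b, hb, e⟩ := h.onto y
    exact ⟨Additive.ofMul ⟨b, hb⟩, e⟩
  have memN : ∀ a, ι a ∈ N ↔ r a = 0 := fun a => (h.zero _ a.toMul.2).symm
  have s1 : ∀ a, a + a = 0 ↔ r a = 0 := fun a => by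
    rw [← memN, ← hs _ a.toMul.2, ← inj.eq_iff]; rfl
  have act : ∀ g a, ι (α g a) = g * ι a * g⁻¹ := fun g a => rfl
  have eqv : ∀ g a, r (α g a) = (θ g).1 *ᵥ r a := fun g a => h.eqv g _ a.toMul.2
  have s2 : ∀ a, r a = 0 → ∃ m, a = m + m := by
    choose s hs' using onto
    let f : V → N := fun x => ⟨ι (s x + s x), hs2 _ (s x).toMul.2⟩
    have fi : Function.Injective f := fun x y e => by
      have e1 : s x + s x = s y + s y := inj (congrArg (Subtype.val : N → X) e)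
      have e2 : s x - s y + (s x - s y) = 0 := by linear_combination (norm := abel) e1
      rw [s1, map_sub, hs', hs', sub_eq_zero] at e2
      exact e2
    have fs := ((Nat.bijective_iff_injective_and_card f).2 ⟨fi, by rw [hN]; simp⟩).2
    intro a ha
    obtain ⟨x, hx⟩ := fs ⟨ι a, (memN a).2 ha⟩
    exact ⟨s x, (inj (congrArg (Subtype.val : N → X) hx)).symm⟩
  obtain ⟨t0, ht0⟩ := h.surj T
  obtain ⟨k, hk⟩ := h.two ⟨t0 ^ 3, by rw [MonoidHom.mem_ker, map_pow, ht0, g5]⟩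
  have hk' : (t0 ^ 3) ^ 2 ^ k = 1 := congrArg Subtype.val hk
  obtain ⟨t, θt, t3⟩ : ∃ t, θ t = T ∧ t * t * t = 1 := by
    refine ⟨t0 ^ 4 ^ k, ?_, ?_⟩
    · rw [map_pow, ht0, pow_eq_pow_mod _ g5, Nat.pow_mod]; simp
    · rw [← pow_three', ← pow_mul, mul_comm, pow_mul, show 4 ^ k = 2 ^ k * 2 ^ k from
        mul_pow 2 2 k, pow_mul, hk', one_pow]
  obtain ⟨m, hm⟩ := onto e0
  have amul : ∀ g k a, α (g * k) a = α g (α k a) := fun g k a =>
    inj (by rw [act, act, act]; group)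
  have H : Hy θ N M ι α r t (m + α t m + α t (α t m)) :=
    { onto := onto, s1 := s1, s2 := s2
      rv := by rw [map_add, map_add, eqv, eqv, eqv, hm, θt]; decide
      two := h.two, nM := h.nB, leQ := h.leQ, inj := inj, add := fun _ _ => rfl
      mem := fun a => a.toMul.2, rng := fun x hx => ⟨Additive.ofMul ⟨x, hx⟩, rfl⟩
      leN := h.le, memN := memN, act := act, eqv := eqv, hq := hq, ht := ht, hC := hC, hz := hz
      t3 := t3, θt := θt
      tv := by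
        have : α t (α t (α t m)) = m := inj (by rw [← amul, ← amul, t3, act]; group)
        rw [map_add, map_add, this]; abel }
  obtain ⟨a, ha⟩ := h.surj Ub
  refine H.z5 hS hN (u := a⁻¹ * (t * a * t⁻¹)) ⟨?_, ?_⟩
  · rw [map_mul, map_mul, map_mul, map_inv, map_inv, ha, θt, g2]
  · calc _ = a⁻¹ * (t * t * t) * a := by group
      _ = 1 := by rw [t3]; group

end Cfsg.Agent.L32
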