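import Cfsg.Agent.L32.D
import Cfsg.Agent.L32.S
import Cfsg.Agent.L32.B
import Cfsg.Agent.L32.C
import Cfsg.Agent.L32.Z
import Cfsg.Agent.H3.PGroup1

/-! The 2-core when an element of order seven has a single nontrivial constituent. -/

set_option autoImplicit false
set_option linter.style.haveILetI false

namespace Cfsg.Agent.L32

open Subgroup

variable {X G : Type*} [Group X] [Group G] [Finite X] {π : X →* G} {x : X}

theorem t7 (hx : orderOf x = 7) {N : Subgroup X} (h8 : Nat.card N = 8) (hi : ∀ n ∈ N, x * n * x⁻¹ ∈ N)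
    (h0 : N ⊓ centralizer {x} = ⊥) {z : X} (hz : x * z * x⁻¹ = z) {T : Set X} (hT : ∀ t ∈ T, x * t * x⁻¹ ∈ T)
    {a b : X} (ha : a ∈ N) (a1 : a ≠ 1) (hb : b ∈ N) (b1 : b ≠ 1) (h : z * a ∈ T) : z * b ∈ T := by
  let S : Set X := {b | b ∈ N ∧ b ≠ 1 ∧ z * b ∈ T}
  have s := H22.Sr.fixc (by decide : Nat.Prime 7) (hx ▸ pow_orderOf_eq_one x) S fun t ⟨h1, h2, h3⟩ =>
    ⟨hi t h1, by simpa using h2, by simpa only [← conj_mul, hz] using hT _ h3⟩
  rw [show {t | t ∈ S ∧ x * t * x⁻¹ = t} = ∅ from Set.eq_empty_of_forall_notMem fun t ⟨h1, h2⟩ => h1.2.1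
    (h0.le ⟨h1.1, mem_centralizer_singleton_iff.2 (mul_inv_eq_iff_eq_mul.1 h2).symm⟩), Set.ncard_empty] at s
  have sub : S ⊆ (N : Set X) \ {1} := fun t h => ⟨h.1, h.2.1⟩
  have c : ((N : Set X) \ {1}).ncard = 7 := by
    rw [Set.ncard_sdiff_singleton_of_mem N.one_mem, ← Nat.card_coe_set_eq]; exact congrArg (· - 1) h8
  have p := (Set.ncard_pos (s := S)).2 ⟨a, ha, a1, h⟩
  exact ((Set.eq_of_subset_of_ncard_le sub (c ▸ Nat.le_of_dvd p (Nat.modEq_zero_iff_dvd.1 s))).ge ⟨hb, b1⟩).2.2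

theorem cop (hx : orderOf x = 7) {N : Subgroup X} [n : N.Normal] (hN : IsPGroup 2 N) {q : X}
    (h : x * q * x⁻¹ * q⁻¹ ∈ N) : ∃ y, y * q⁻¹ ∈ N ∧ y ∈ centralizer {x} := by
  have s := H22.Sr.fixc (by decide : Nat.Prime 7) (hx ▸ pow_orderOf_eq_one x) {y | y * q⁻¹ ∈ N} fun t ht => by
    have := N.mul_mem (n.conj_mem _ ht x) h
    simpa [mul_assoc] using this
  obtain ⟨k, e⟩ := hN.exists_card_eq
  rw [show {y | y * q⁻¹ ∈ N} = (· * q⁻¹) ⁻¹' (N : Set X) from rfl, Set.ncard_preimage_of_injective_subset_range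
    (mul_left_injective _) (by rw [(mul_right_surjective _).range_eq]; exact Set.subset_univ _), ← Nat.card_coe_set_eq, SetLike.coe_sort_coe, e] at s
  obtain ⟨y, h1, h2⟩ := Set.nonempty_of_ncard_ne_zero fun z => by
    rw [z] at s
    exact absurd ((by decide : Nat.Prime 7).dvd_of_dvd_pow (Nat.modEq_zero_iff_dvd.1 s)) (by decide)
  exact ⟨y, h1, mem_centralizer_singleton_iff.2 (mul_inv_eq_iff_eq_mul.1 h2).symm⟩

theorem St.quot (h : St π x) (N : Subgroup X) [N.Normal] (hN : N ≤ π.ker) :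
    St (QuotientGroup.lift N π hN) (x : X ⧸ N) ∧ (∀ g : X, (g : X ⧸ N) ∈ (QuotientGroup.lift N π hN).ker ↔ g ∈ π.ker) ∧
      (QuotientGroup.lift N π hN).ker = π.ker.map (QuotientGroup.mk' N) ∧
      (QuotientGroup.lift N π hN).ker ⊓ centralizer {(x : X ⧸ N)} =
        (π.ker ⊓ centralizer {x}).map (QuotientGroup.mk' N) := by
  have k := QuotientGroup.ker_lift N π hN
  refine ⟨⟨h.simple, h.card, fun g => ?_, k ▸ h.two.map _, fun Y _ K hK s => ?_, ?_⟩, fun g => Iff.rfl, k,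
    le_antisymm (fun q hq => ?_) ?_⟩
  · obtain ⟨y, rfl⟩ := h.surj g
    exact ⟨y, rfl⟩
  · have := h.sr (Y.comap (QuotientGroup.mk' N)) le_top (K.comap _) (comap_mono hK) fun y hy => s _ hy
    rwa [relIndex_comap, map_comap_eq_self_of_surjective (QuotientGroup.mk'_surjective N)] at this
  · refine ((Nat.dvd_prime (by decide)).1 (h.ord ▸ orderOf_map_dvd (QuotientGroup.mk' N) x)).resolve_left fun e => ?_
    exact h.nx (hN ((QuotientGroup.eq_one_iff x).1 (orderOf_eq_one_iff.1 e)))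
  · obtain ⟨q, rfl⟩ := QuotientGroup.mk_surjective q
    obtain ⟨h1, h2⟩ := mem_inf.1 hq
    obtain ⟨y, a, b⟩ := cop h.ord (h.two.to_le hN) (q := q) (by
      rw [← QuotientGroup.eq_one_iff]
      simp [← mem_centralizer_singleton_iff.1 h2])
    refine ⟨y, ⟨by simpa using π.ker.mul_mem (hN a) h1, b⟩, ?_⟩
    simpa [mul_inv_eq_one] using (QuotientGroup.eq_one_iff _).2 a
  · rintro _ ⟨y, ⟨a, b⟩, rfl⟩
    exact ⟨a, mem_centralizer_singleton_iff.2 (congrArg (QuotientGroup.mk' N) (mem_centralizer_singleton_iff.1 b))⟩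

/-- The 2-core is `N × ⟨c⟩`, and `z` generates the elements of order at most two of `⟨c⟩`. -/
structure Dec (π : X →* G) (x : X) (N : Subgroup X) (c z : X) : Prop where
  le : N ≤ π.ker
  card : Nat.card N = 8
  sq : ∀ n ∈ N, n * n = 1
  inv : ∀ n ∈ N, x * n * x⁻¹ ∈ N
  bot : N ⊓ centralizer {x} = ⊥
  cen : ∀ q ∈ π.ker, ∀ n ∈ N, q * n = n * q
  cyc : π.ker ⊓ centralizer {x} = zpowers c
  gen : ∀ q ∈ π.ker, ∃ n ∈ N, ∃ k : ℕ, q = n * c ^ k
  zz : z * z = 1
  zc : z ∈ zpowers c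
  uz : ∀ y ∈ zpowers c, y * y = 1 → y = 1 ∨ y = z
  nz : z = 1 → c = 1

theorem uz {c : X} {k : ℕ} (h : orderOf c = 2 ^ (k + 1)) : c ^ 2 ^ k * c ^ 2 ^ k = 1 ∧ c ^ 2 ^ k ≠ 1 ∧
    ∀ y ∈ zpowers c, y * y = 1 → y = 1 ∨ y = c ^ 2 ^ k := by
  have a : c ^ 2 ^ k * c ^ 2 ^ k = 1 := by rw [← pow_add, ← two_mul, ← pow_succ', ← h, pow_orderOf_eq_one]
  refine ⟨a, pow_ne_one_of_lt_orderOf (by positivity) (by rw [h]; exact Nat.pow_lt_pow_right (by decide) (by omega)),
    fun y hy e => ?_⟩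
  obtain ⟨m, rfl⟩ := mem_powers_iff_mem_zpowers.2 hy
  rw [← pow_add, ← orderOf_dvd_iff_pow_eq_one, h, ← two_mul, pow_succ'] at e
  obtain ⟨i, rfl⟩ := Nat.dvd_of_mul_dvd_mul_left two_pos e
  obtain ⟨j, rfl | rfl⟩ := i.even_or_odd' <;> simp [pow_mul, pow_succ, sq, a]

theorem St.dec (h : St π x) (h8 : Nat.card π.ker = 8 * Nat.card (π.ker ⊓ centralizer {x} : Subgroup X)) :
    ∃ N c z, Dec π x N c z := by
  obtain ⟨N, le, card, sq, inv, bot, cen, sup⟩ := ps h.two h.ord h8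
  set C := π.ker ⊓ centralizer {x} with hC
  have hp : IsPGroup 2 C := h.two.to_le inf_le_left
  have gen : ∀ q ∈ π.ker, ∃ n ∈ N, ∃ y ∈ C, n * y = q := fun q hq => by
    have : C ≤ normalizer (N : Set X) := fun y hy => mem_normalizer_fintype fun n hn => by
      rwa [cen y hy.1 n hn, mul_inv_cancel_right]
    rw [← sup, ← SetLike.mem_coe, coe_mul_of_right_le_normalizer_left _ _ this] at hq
    exact hq
  have r := h.sr π.ker le_top ((frattini C).map C.subtype) ((map_subtype_le _).trans inf_le_left) fun q hq => by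
    obtain ⟨n, hn, y, hy, rfl⟩ := gen q hq
    rw [mul_assoc, ← mul_assoc y, cen y hy.1 n hn, mul_assoc, ← mul_assoc, sq n hn, one_mul, ← pow_two]
    exact H3.pow_mem_frattiniOf hp hy
  have a := relIndex_mul_relIndex _ C π.ker (map_subtype_le (frattini C)) inf_le_left
  have b := H11.card_inf_mul_relIndex C π.ker
  rw [inf_eq_left.2 (show C ≤ _ from inf_le_left), h8, mul_comm 8] at b
  rw [Nat.eq_of_mul_eq_mul_left Nat.card_pos b, relIndex, ← comap_subtype,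
    comap_map_eq_self_of_injective C.subtype_injective] at a
  obtain ⟨c, hc⟩ : ∃ c : C, zpowers c ⊔ frattini C = ⊤ := by
    by_cases t : frattini C = ⊤
    · exact ⟨1, by simp [t]⟩
    obtain ⟨c, hc⟩ := not_forall.1 (mt (eq_top_iff' _).2 t)
    have i : (frattini C).index = 2 := by
      have := (frattini C).index_ne_zero_of_finite
      have := mt index_eq_one.1 t
      omega
    refine ⟨c, (eq_top_iff' _).2 fun g => ?_⟩
    by_cases k : g ∈ frattini C
    · exact mem_sup_right k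
    · simpa using mul_mem_sup (inv_mem (mem_zpowers c)) ((mul_mem_iff_of_index_two i (a := c) (b := g)).2 (by simp [hc, k]))
  have cyc : C = zpowers c.1 := by
    rw [← coe_subtype, ← MonoidHom.map_zpowers, frattini_nongenerating hc, ← MonoidHom.range_eq_map, range_subtype]
  have gen' : ∀ q ∈ π.ker, ∃ n ∈ N, ∃ k : ℕ, q = n * c.1 ^ k := fun q hq => by
    obtain ⟨n, hn, y, hy, rfl⟩ := gen q hq
    obtain ⟨k, rfl⟩ := mem_powers_iff_mem_zpowers.2 (cyc.le hy)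
    exact ⟨n, hn, k, rfl⟩
  obtain ⟨_ | k, e⟩ := IsPGroup.iff_orderOf.1 hp c
  · have e : c.1 = 1 := congrArg Subtype.val (orderOf_eq_one_iff.1 e)
    exact ⟨N, c, 1, le, card, sq, inv, bot, cen, cyc, gen', one_mul _, one_mem _, by simp [e], fun _ => e⟩
  · obtain ⟨a, b, d⟩ := uz ((orderOf_coe c).trans e)
    exact ⟨N, c, _, le, card, sq, inv, bot, cen, cyc, gen', a, pow_mem (mem_zpowers _) _, d, fun e => (b e).elim⟩

section

variable {A N : Subgroup X} {z : X} (mA : ∀ {w}, w ∈ A ↔ w ∈ N ∨ z * w ∈ N) (zz : z * z = 1) (N8 : Nat.card N = 8)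
  (cz : ∀ w ∈ A, z * w = w * z)
include mA zz N8 cz

theorem card16 (zN : z ∉ N) : Nat.card A = 16 := by
  have zW : z ∈ A := mA.2 (.inr (zz ▸ one_mem _))
  have le : N ≤ A := fun n hn => mA.2 (.inl hn)
  have := H11.card_inf_mul_relIndex N A
  rw [inf_eq_left.2 le, N8, relIndex, index_eq_two_iff.2 ⟨⟨z, zW⟩, fun b => by
    have := mA.1 b.2
    rw [cz b b.2] at this
    simp only [mem_subgroupOf, coe_mul]
    by_cases t : b.1 ∈ N
    · exact .inr ⟨t, by rwa [N.mul_mem_cancel_left t]⟩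
    · exact .inl ⟨this.resolve_left t, t⟩⟩] at this
  exact this.symm

theorem m3 (h : St π x) [nW : A.Normal] (sq : ∀ n ∈ N, n * n = 1) (inv : ∀ n ∈ N, x * n * x⁻¹ ∈ N)
    (bot : N ⊓ centralizer {x} = ⊥) (xz : x * z * x⁻¹ = z) (Qz : ∀ q ∈ π.ker, q * z = z * q) (hN : ¬ N.Normal) : z ∉ N ∧ (∀ g, g * z * g⁻¹ = z) ∧
    ∀ w ∈ A, w ≠ 1 → w ≠ z → ∃ g, g * w * g⁻¹ = z * w := by
  have zN : z ∉ N := fun k => hN (by
    rw [show N = A from ext fun w => by rw [mA, N.mul_mem_cancel_left k, or_self]]; infer_instance)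
  have zW : z ∈ A := mA.2 (.inr (zz ▸ one_mem _))
  have zi : ∀ {a : X}, z * (z * a) = a := by intro a; rw [← mul_assoc, zz, one_mul]
  have o : ∀ w g, ∀ t ∈ {t | ∃ g : X, g * w * g⁻¹ = t}, g * t * g⁻¹ ∈ {t | ∃ g : X, g * w * g⁻¹ = t} := by
    rintro w g _ ⟨k, rfl⟩
    exact ⟨g * k, by group⟩
  obtain ⟨g, a, ha, hg⟩ : ∃ g, ∃ a ∈ N, g * a * g⁻¹ ∉ N := by
    by_contra! k
    exact hN ⟨fun a ha g => k g a ha⟩
  have a1 : a ≠ 1 := by rintro rfl; simp at hg
  have hg' := (mA.1 (nW.conj_mem a (mA.2 (.inl ha)) g)).resolve_left hg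
  have zc : ∀ g, g * z * g⁻¹ = z := by
    by_contra! k
    obtain ⟨k, hk⟩ := k
    have z1 : ∀ k : X, k * z * k⁻¹ ≠ 1 := fun k => by simpa using fun e : z = 1 => zN (e ▸ one_mem _)
    by_cases m : ∃ k : X, k * z * k⁻¹ ∈ N
    · obtain ⟨k, m⟩ := m
      have all : ∀ b ∈ N, b ≠ 1 → ∃ k : X, k * z * k⁻¹ = b := fun b hb b1 => by
        simpa using t7 h.ord N8 inv bot (z := 1) (by simp) (o z x) m (z1 k) hb b1 ⟨k, by simp⟩
      have no : ∀ b ∈ N, b ≠ 1 → ∀ k : X, k * z * k⁻¹ ≠ z * b := fun b hb b1 k e => by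
        have s : MulAction.orbit (ConjAct X) z = (A : Set X) \ {1} := by
          refine Set.Subset.antisymm ?_ fun w hw => ?_
          · rintro _ ⟨k, rfl⟩
            exact ⟨nW.conj_mem z zW k, z1 k⟩
          rcases mA.1 hw.1 with t | t
          · exact all w t hw.2
          by_cases s : z * w = 1
          · exact ⟨1, by rw [← zi (a := w), s]; simp⟩
          · have := t7 h.ord N8 inv bot xz (o z x) hb b1 t s ⟨k, e⟩
            rw [zi] at this
            exact this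
        have i := MulAction.index_stabilizer (ConjAct X) z
        have j : (MulAction.stabilizer (ConjAct X) z).index ∣ π.ker.index :=
          index_dvd_of_le (G := X) fun q hq => mul_inv_eq_iff_eq_mul.2 (Qz q hq)
        have c := card16 mA zz N8 cz zN
        rw [i, s, Set.ncard_sdiff_singleton_of_mem A.one_mem, ← Nat.card_coe_set_eq, SetLike.coe_sort_coe, c,
          index_ker, MonoidHom.range_eq_top.2 h.surj, card_top, h.card] at j
        exact absurd j (by decide)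
      obtain ⟨b, hb, n⟩ : ∃ b ∈ N, b ∉ zpowers (k * z * k⁻¹) := by
        by_contra! t
        have := card_le_of_le (show N ≤ _ from t)
        rw [N8, Nat.card_zpowers] at this
        have := Nat.le_of_dvd two_pos (orderOf_dvd_of_pow_eq_one ((pow_two _).trans (sq _ m)))
        omega
      have key : ∀ j : X, j * z * j⁻¹ = z ∨ j * z * j⁻¹ ∈ N := fun j => by
        refine (mA.1 (nW.conj_mem z zW j)).symm.imp_left fun t => by_contra fun s => ?_
        exact no _ t (fun e => s (by rw [← zi (a := j * z * j⁻¹), e, mul_one])) j zi.symm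
      obtain ⟨j, e⟩ := all b hb fun e => n (e ▸ one_mem _)
      obtain ⟨l, f⟩ := all _ (N.mul_mem m hb) fun e => n (by
        rw [eq_inv_of_mul_eq_one_right e]; exact inv_mem (mem_zpowers _))
      have r : k⁻¹ * l * z * (k⁻¹ * l)⁻¹ = z * (k⁻¹ * j * z * (k⁻¹ * j)⁻¹) := by
        rw [show k⁻¹ * l * z * (k⁻¹ * l)⁻¹ = k⁻¹ * (l * z * l⁻¹) * k by group, f, ← e]; group
      rcases key (k⁻¹ * j) with t | t
      · exact z1 _ (by rw [r, t, zz])
      · exact no _ t (z1 _) _ r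
    · push Not at m
      have t : ∀ j : X, z * (j * z * j⁻¹) ∈ N := fun j => (mA.1 (nW.conj_mem z zW j)).resolve_left (m j)
      obtain ⟨j, e⟩ := t7 h.ord N8 inv bot xz (o z x) (t k) (fun e => hk (by rw [← zi (a := k * z * k⁻¹), e, mul_one])) ha a1
        ⟨k, zi.symm⟩
      have := N.mul_mem (N.inv_mem (t g)) (t (g * j))
      rw [show g * j * z * (g * j)⁻¹ = g * (j * z * j⁻¹) * g⁻¹ by group, e] at this
      exact hg (by simpa [mul_assoc] using this)
  refine ⟨zN, zc, fun w hw w1 wz => ?_⟩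
  have b1 : z * (g * a * g⁻¹) ≠ 1 := fun e => zN (by
    have e2 : g * a * g⁻¹ = g * z * g⁻¹ := by rw [zc g, ← zi (a := g * a * g⁻¹), e, mul_one]
    rwa [← show a = z by simpa using e2])
  have p : ∀ b ∈ N, b ≠ 1 → ∃ k : X, k * b * k⁻¹ = z * b := fun b hb b1' => by
    obtain ⟨k, e⟩ := t7 h.ord N8 inv bot (z := 1) (by simp) (o a x) ha a1 hb b1' ⟨1, by simp⟩
    obtain ⟨j, f⟩ := t7 h.ord N8 inv bot xz (o a x) hg' b1 hb b1' ⟨g, zi.symm⟩
    exact ⟨j * k⁻¹, by rw [← f, ← one_mul b, ← e]; group⟩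
  rcases mA.1 hw with t | t
  · exact p w t w1
  · obtain ⟨k, e⟩ := p _ t fun e => wz (by rw [← zi (a := w), e, mul_one])
    rw [zi] at e
    exact ⟨k⁻¹, by nth_rw 1 [← e]; group⟩

end

namespace Dec

variable {N : Subgroup X} {c z : X} (d : Dec π x N c z)
include d

omit [Finite X] in
theorem cQ : c ∈ π.ker := (d.cyc.ge (mem_zpowers c)).1

omit [Finite X] in
theorem zQ : z ∈ π.ker := (d.cyc.ge d.zc).1

omit [Finite X] in
theorem xc {y : X} (hy : y ∈ zpowers c) : x * y * x⁻¹ = y :=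
  mul_inv_eq_iff_eq_mul.2 (mem_centralizer_singleton_iff.1 (d.cyc.ge hy).2).symm

omit [Finite X] in
theorem comm : ∀ a ∈ π.ker, ∀ b ∈ π.ker, a * b = b * a := fun a ha b hb => by
  obtain ⟨n, hn, k, rfl⟩ := d.gen b hb
  obtain ⟨m, hm, j, e⟩ := d.gen a ha
  refine (Commute.mul_right (d.cen a ha n hn) (Commute.pow_right ?_ k)).eq
  exact e ▸ Commute.mul_left (d.cen c d.cQ m hm).symm ((Commute.refl c).pow_left j)

omit [Finite X] in
theorem nc {y : X} (h : y ∈ N) (k : y ∈ zpowers c) : y = 1 := d.bot.le ⟨h, (d.cyc.ge k).2⟩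

/-- The elements of order at most two of the 2-core. -/
def W : Subgroup X where
  carrier := {q | q ∈ π.ker ∧ q * q = 1}
  one_mem' := ⟨one_mem _, one_mul _⟩
  mul_mem' := fun {a b} ha hb => ⟨mul_mem ha.1 hb.1, by
    rw [(show Commute b a from d.comm b hb.1 a ha.1).mul_mul_mul_comm, ha.2, hb.2, one_mul]⟩
  inv_mem' := fun {a} ha => ⟨inv_mem ha.1, by rw [← mul_inv_rev, ha.2, inv_one]⟩

instance : d.W.Normal := ⟨fun a ha g => ⟨(MonoidHom.normal_ker π).conj_mem a ha.1 g, by rw [conj_mul, ha.2]; simp⟩⟩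

omit [Finite X] in
theorem mem_W {w : X} : w ∈ d.W ↔ w ∈ N ∨ z * w ∈ N := by
  refine ⟨fun ⟨h, e⟩ => ?_, fun h => ?_⟩
  · obtain ⟨n, hn, k, rfl⟩ := d.gen w h
    rw [(show Commute (c ^ k) n from d.cen _ (pow_mem d.cQ k) n hn).mul_mul_mul_comm, d.sq n hn, one_mul] at e
    rcases d.uz _ (pow_mem (mem_zpowers c) k) e with e | e <;> rw [e]
    · exact .inl (by simpa)
    · exact .inr (by rwa [← d.cen z d.zQ n hn, ← mul_assoc, d.zz, one_mul])
  · have a : N ≤ d.W := fun n hn => ⟨d.le hn, d.sq n hn⟩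
    exact h.elim (@a w) fun h => (d.W.mul_mem_cancel_left ⟨d.zQ, d.zz⟩).1 (a h)

theorem card_W (zN : z ∉ N) : Nat.card d.W = 16 :=
  card16 d.mem_W d.zz d.card (fun w hw => d.comm z d.zQ w hw.1) zN

theorem t7 (h : St π x) {y : X} (hy : y ∈ zpowers c) {T : Set X} (hT : ∀ g, ∀ t ∈ T, g * t * g⁻¹ ∈ T)
    {a b : X} (ha : a ∈ N) (a1 : a ≠ 1) (hb : b ∈ N) (b1 : b ≠ 1) (k : y * a ∈ T) : y * b ∈ T :=
  L32.t7 h.ord d.card d.inv d.bot (d.xc hy) (hT x) ha a1 hb b1 k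

theorem m3 (h : St π x) (hN : ¬ N.Normal) : z ∉ N ∧ (∀ g, g * z * g⁻¹ = z) ∧
    ∀ w ∈ d.W, w ≠ 1 → w ≠ z → ∃ g, g * w * g⁻¹ = z * w :=
  L32.m3 d.mem_W d.zz d.card (fun w hw => d.comm z d.zQ w hw.1) h d.sq d.inv d.bot (d.xc d.zc)
    (fun q hq => d.comm q hq z d.zQ) hN

end Dec

end Cfsg.Agent.L32
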