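import Cfsg.Agent.L32.E
import Cfsg.Agent.H2.Basic

/-! An element of order seven has a single nontrivial constituent on the 2-core. -/

set_option autoImplicit false
set_option linter.style.haveILetI false

namespace Cfsg.Agent.L32

open Subgroup

variable {X G : Type*} [Group X] [Group G] [Finite X] {π : X →* G} {x : X}

theorem St.dvd (h : St π x) : 168 ∣ Nat.card X := h.card ▸ card_dvd_of_surjective π h.surj

theorem ar {r : ℕ} (a : 8 ≡ r [MOD 3]) (b : r ∣ 8) (c : 2 < r) : 8 ≤ r := by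
  have := Nat.le_of_dvd (by decide) b
  interval_cases r <;> simp_all [Nat.ModEq]

set_option maxHeartbeats 2000000 in
theorem two (h : St π x) (hZ : ∀ s ∈ π.ker, s ∈ center X → s = 1) {N : Subgroup X} [nN : N.Normal] (hN : N ≤ π.ker)
    (N8 : Nat.card N = 8) (N2 : ∀ n ∈ N, n * n = 1) (NQ : ∀ q ∈ π.ker, ∀ n ∈ N, q * n = n * q)
    (Nb : N ⊓ centralizer {x} = ⊥) {N0 : Subgroup (X ⧸ N)} {c0 z0 : X ⧸ N}
    (d : Dec (QuotientGroup.lift N π hN) (x : X ⧸ N) N0 c0 z0) : False := by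
  obtain ⟨h', mk, -, hC⟩ := h.quot N hN
  have one : ∀ {y : X}, (y : X ⧸ N) = 1 ↔ y ∈ N := QuotientGroup.eq_one_iff _
  have eqN : ∀ {a b : X}, (a : X ⧸ N) = b → ∃ n ∈ N, a = n * b := fun {a b} e =>
    ⟨a * b⁻¹, one.1 (by simp [e]), by simp⟩
  obtain ⟨c, ⟨cQ, cx⟩, rfl⟩ := hC.le (d.cyc.ge (mem_zpowers c0))
  have xc : ∀ k : ℕ, x * c ^ k * x⁻¹ = c ^ k := fun k =>
    mul_inv_eq_iff_eq_mul.2 (mem_centralizer_singleton_iff.1 (pow_mem cx k)).symm
  have nc : ∀ k : ℕ, ((c ^ k : X) : X ⧸ N) ∈ N0 → c ^ k = 1 := fun k e =>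
    Nb.le ⟨one.1 (d.nc e (pow_mem (mem_zpowers _) k)), pow_mem cx k⟩
  obtain ⟨i, rfl⟩ := mem_powers_iff_mem_zpowers.2 d.zc
  have zz : c ^ i * c ^ i = 1 := by
    rw [← pow_add]; exact nc _ (by rw [pow_add, show ((c ^ i * c ^ i : X) : X ⧸ N) = 1 from d.zz]; exact one_mem _)
  let M := N0.comap (QuotientGroup.mk' N)
  have MQ : M ≤ π.ker := fun m hm => (mk m).1 (d.le hm)
  have NM : N ≤ M := fun n hn => mem_comap.2 (by rw [QuotientGroup.mk'_apply, one.2 hn]; exact one_mem _)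
  have M8 : Nat.card M = 8 * Nat.card N := by rw [H22.Sr.card_comap, d.card, mul_comm]
  have Qc : ∀ a ∈ π.ker, ∀ b ∈ π.ker, a * b * a⁻¹ * b⁻¹ ∈ N := fun a ha b hb => one.1 (by
    simp [d.comm a ((mk a).2 ha) b ((mk b).2 hb)])
  have gen : ∀ q ∈ π.ker, ∃ m ∈ M, ∃ k : ℕ, q = m * c ^ k := fun q hq => by
    obtain ⟨n, hn, k, e⟩ := d.gen q ((mk q).2 hq)
    exact ⟨q * (c ^ k)⁻¹, mem_comap.2 (by simpa [e] using hn), k, by simp⟩
  have Msq : ∀ m ∈ M, m * m ∈ N := fun m hm => one.1 (d.sq _ hm)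
  have sqN : ∀ n ∈ N, ∀ y ∈ π.ker, n * y * (n * y) = y * y := fun n hn y hy => by
    rw [(show Commute y n from NQ y hy n hn).mul_mul_mul_comm, N2 n hn, one_mul]
  let T : Set (X ⧸ N) := {a | ∃ y : X, (y : X ⧸ N) = a ∧ y * y ≠ 1}
  have iT : ∀ g, ∀ t ∈ T, g * t * g⁻¹ ∈ T := by
    rintro g _ ⟨y, rfl, e⟩
    obtain ⟨g, rfl⟩ := QuotientGroup.mk_surjective g
    exact ⟨g * y * g⁻¹, rfl, by rw [conj_mul]; simpa⟩
  have sT : ∀ y ∈ π.ker, (y : X ⧸ N) ∈ T → y * y ≠ 1 := fun y hy ⟨a, e, k⟩ => by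
    obtain ⟨n, hn, rfl⟩ := eqN e
    rwa [sqN n hn y hy] at k
  have M1 : ∀ m ∈ M, m ∉ N → m * m ≠ 1 := fun m hm n => by
    obtain ⟨a, ha, e⟩ : ∃ a ∈ M, a * a ≠ 1 := by
      by_contra! k
      have := h.sr M le_top ⊥ bot_le k
      rw [relIndex_bot_left, M8, N8] at this
      omega
    have := d.t7 h' (one_mem _) iT ha (mt one.1 fun k => e (N2 a k)) hm (mt one.1 n) ⟨a, by simp, e⟩
    exact sT m (MQ hm) (by simpa using this)
  have triv : ∀ (B : Subgroup X) [B.Normal], M ≤ B → ∀ g, ∀ q ∈ π.ker, g * q * g⁻¹ * q⁻¹ ∈ B := fun B n le g =>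
    mem_Tr.1 (h.top (Tr B π.ker) (fun a ha => mem_Tr.2 fun b hb => le (NM (Qc a ha b hb))) h.nx (mem_Tr.2 fun q hq => by
      obtain ⟨m, hm, k, rfl⟩ := gen q hq
      rw [← conj_mul, xc]
      simpa [mul_assoc] using B.mul_mem (n.conj_mem m (le hm) x) (B.inv_mem (le hm))) g)
  have xM : ¬ ∀ m ∈ M, x * m * x⁻¹ * m⁻¹ ∈ N := fun k => by
    have := card_le_of_le (show M ≤ N from fun m hm => one.1 (d.bot.le ⟨hm, mem_centralizer_singleton_iff.2 (by
      have := one.2 (k m hm)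
      simp only [QuotientGroup.mk_mul, QuotientGroup.mk_inv] at this
      exact (mul_inv_eq_iff_eq_mul.1 (mul_inv_eq_one.1 this)).symm)⟩))
    omega
  by_cases n0 : N0.Normal
  · have nM : M.Normal := n0.comap _
    obtain ⟨θ, ρ, co, e⟩ := h.coord NM MQ M8 Msq (fun a ha => mem_Tr.2 fun b hb => Qc a ha b (MQ hb))
      (mt mem_Tr.1 xM)
    obtain ⟨cm, pm⟩ := lin co N8 le_rfl N2 (fun p hp w hw => (NQ w (MQ hw) p hp).symm) (e ▸ NQ)
      (fun n hn => hZ n (hN hn)) Msq M1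
    have sM : ∀ a ∈ M, a * a = 1 ↔ a ∈ N := fun a ha => ⟨fun k => by_contra fun n => M1 a ha n k, N2 a⟩
    rw [e] at pm
    refine pz co h.sr N8 cm sM Msq (e ▸ fun q hq => pm q hq (fun g => triv M le_rfl g q hq)
      (fun w hw => Qc q hq w (MQ hw)) fun p hp => (NQ q hq p hp)) (e ▸ triv M le_rfl) (e ▸ fun q hq k => ?_)
      (e ▸ fun y y1 y2 y3 y4 => by_contra fun y5 => y1 ?_)
    · obtain ⟨m, hm, j, rfl⟩ := gen q hq
      refine ⟨_, nM.conj_mem _ (M.inv_mem hm) (c ^ j)⁻¹, ?_⟩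
      have := M.mul_mem (nM.conj_mem _ (M.inv_mem hm) (c ^ j)⁻¹⁻¹) ((M.mul_mem_cancel_left hm).1 (mul_assoc m _ _ ▸ k))
      have := nc (j + j) (by simpa [mul_assoc, pow_add] using mem_comap.1 this)
      simpa [mul_assoc, pow_add] using this
    · set s := y * y
      obtain ⟨m, hm, j, f⟩ := gen s y2
      have f' : c ^ j = m⁻¹ * s := by simp [f]
      have m2 : m ∈ N := (sM m hm).1 (by
        have : c ^ (j + j) = (m * m)⁻¹ := by
          rw [pow_add, f', (show Commute s m⁻¹ from y3 _ (M.inv_mem hm)).mul_mul_mul_comm, y4, mul_one, mul_inv_rev]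
        exact inv_eq_one.1 (this ▸ nc _ (by rw [this]; exact NM (N.inv_mem (Msq m hm)))))
      refine e ▸ fpf co.surj (S := (· * s⁻¹) ⁻¹' (N : Set X)) ?_ (fun g t ht => ?_) (e ▸ fun q hq t ht => ?_)
        (fun t ht k => y5 ?_) (e ▸ y2) (s := s) (by simp) (mul_assoc _ _ _).symm
      · rw [Set.ncard_preimage_of_injective_subset_range (mul_left_injective _)
          (by rw [(mul_right_surjective _).range_eq]; exact Set.subset_univ _), ← Nat.card_coe_set_eq]
        exact N8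
      · have a := triv M le_rfl g s y2
        have b := (sM _ a).1 (by
          have := (show Commute s _ from y3 _ a).mul_mul_mul_comm (g * s * g⁻¹ * s⁻¹) s
          rwa [y4, mul_one, inv_mul_cancel_right, conj_mul, y4, mul_one, mul_inv_cancel, eq_comm] at this)
        simpa [mul_assoc] using N.mul_mem (nN.conj_mem _ ht g) b
      · obtain ⟨m', hm', k, rfl⟩ := gen q hq
        have a : Commute (m' * c ^ k) s := Commute.mul_left (y3 _ hm').symm (f ▸ Commute.mul_right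
          (NQ _ (pow_mem cQ k) m m2) (Commute.pow_pow_self c k j))
        simpa using (Commute.mul_right (NQ _ hq _ ht) a).eq
      · have := hZ t ((π.ker.mul_mem_cancel_right (inv_mem y2)).1 (hN ht)) k
        exact NM (by simpa [this] using ht)
  obtain ⟨zN, zc, tr⟩ := d.m3 h' n0
  set z := c ^ i
  change (z : X ⧸ N) ∉ N0 at zN
  change ∀ g, g * (z : X ⧸ N) * g⁻¹ = z at zc
  have zQ : z ∈ π.ker := pow_mem cQ i
  have zi : ∀ {a : X}, z * (z * a) = a := by intro a; rw [← mul_assoc, zz, one_mul]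
  let W := d.W.comap (QuotientGroup.mk' N)
  have mW : ∀ {w}, w ∈ W ↔ w ∈ M ∨ z * w ∈ M := d.mem_W
  have WQ : W ≤ π.ker := fun w hw => (mk w).1 hw.1
  have MW : M ≤ W := fun m hm => mW.2 (.inl hm)
  have Wsq : ∀ w ∈ W, w * w ∈ N := fun w hw => one.1 hw.2
  have oz : orderOf (z : X ⧸ N) = 2 := orderOf_eq_prime ((pow_two _).trans d.zz) fun e => zN (e ▸ one_mem _)
  let P := (zpowers (z : X ⧸ N)).comap (QuotientGroup.mk' N)
  have mP : ∀ p, p ∈ P ↔ p ∈ N ∨ z * p ∈ N := fun p => by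
    rw [← one, ← one]
    refine ⟨fun k => (d.uz _ (zpowers_le.2 d.zc k) ((zpowers_le.2 (show (z : X ⧸ N) ∈ d.W from ⟨d.zQ, d.zz⟩) k).2)).imp_right
      fun e => (congrArg ((z : X ⧸ N) * ·) e).trans d.zz, ?_⟩
    rintro (k | k)
    · exact mem_comap.2 (by rw [QuotientGroup.mk'_apply, k]; exact one_mem _)
    · exact mem_comap.2 (by rw [QuotientGroup.mk'_apply, eq_inv_of_mul_eq_one_right (a := (z : X ⧸ N)) (b := (p : X ⧸ N)) k]; simp)
  have nP : P.Normal := Normal.comap (H22.Sr.normal_of_central (zpowers_le.2 (mem_center_iff.2 fun g =>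
    mul_inv_eq_iff_eq_mul.1 (zc g)))) _
  have NP : N ≤ P := fun n hn => (mP n).2 (.inl hn)
  have PW : P ≤ W := fun p hp => mW.2 (((mP p).1 hp).imp (@NM _) (@NM _))
  have zP : z ∈ P := (mP z).2 (.inr (zz ▸ one_mem _))
  obtain ⟨θ, ρ, co, e⟩ := h.coord PW WQ (by rw [H22.Sr.card_comap, H22.Sr.card_comap, d.card_W zN, Nat.card_zpowers, oz, N8])
    (fun w hw => NP (Wsq w hw)) (fun a ha => mem_Tr.2 fun b hb => NP (Qc a ha b (WQ hb))) fun k => xM fun m hm =>
      ((mP _).1 (mem_Tr.1 k m (MW hm))).resolve_right fun t => zN ((M.mul_mem_cancel_right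
        (M.mul_mem (show x * m * x⁻¹ ∈ M from d.inv _ hm) (M.inv_mem hm))).1 (NM t))
  have tr' : ∀ w ∈ W, w ∉ P → ∃ g : X, ((g * w * g⁻¹ : X) : X ⧸ N) = (z * w : X) := fun w hw n => by
    obtain ⟨g, k⟩ := tr w hw (fun k => n (NP (one.1 k))) fun k => n (mem_comap.2 (by
      rw [QuotientGroup.mk'_apply, k]; exact mem_zpowers _))
    obtain ⟨g, rfl⟩ := QuotientGroup.mk_surjective g
    exact ⟨g, k⟩
  have W1 : ∀ w ∈ W, w ∉ P → w * w ≠ 1 := fun w hw n => by
    rcases mW.1 hw with k | k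
    · exact M1 w k fun t => n (NP t)
    · obtain ⟨g, f⟩ := tr' w hw n
      have := sT _ ((MonoidHom.normal_ker π).conj_mem w (WQ hw) g) ⟨_, f.symm, M1 _ k fun t => n ((mP w).2 (.inr t))⟩
      rw [conj_mul] at this
      simpa using this
  have zg : ∀ g : X, ∃ n ∈ N, g * z * g⁻¹ = n * z := fun g => eqN (zc g)
  have zW : ∀ w ∈ W, w * z = z * w := by
    by_contra! k
    obtain ⟨w, hw, k⟩ := k
    have cm : ∀ n ∈ N, ∀ y ∈ π.ker, y * (n * z) = n * z * y ↔ y * z = z * y := fun n hn y hy => by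
      rw [← mul_assoc, NQ y hy n hn, mul_assoc, mul_assoc, mul_right_inj]
    have all : ∀ m ∈ M, m ∉ N → m * z ≠ z * m := fun m hm n => by
      obtain ⟨a, ha, k⟩ : ∃ a ∈ M, a * z ≠ z * a := (mW.1 hw).elim (fun t => ⟨w, t, k⟩) fun t =>
        ⟨_, t, by rwa [mul_assoc, Ne, mul_right_inj]⟩
      obtain ⟨y, hy, f, t⟩ := d.t7 h' (one_mem _) (T := {a | ∃ y ∈ π.ker, (y : X ⧸ N) = a ∧ y * z ≠ z * y}) (by
        rintro g _ ⟨y, hy, rfl, t⟩
        obtain ⟨g, rfl⟩ := QuotientGroup.mk_surjective g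
        obtain ⟨n, hn, f⟩ := zg g
        have s := (MonoidHom.normal_ker π).conj_mem y hy g
        refine ⟨_, s, rfl, fun u => t ?_⟩
        rw [← cm n hn _ s, ← f, conj_mul, conj_mul] at u
        simpa using u) ha (mt one.1 fun t => k (NQ z zQ a t).symm) hm (mt one.1 n) ⟨a, MQ ha, by simp, k⟩
      obtain ⟨n, hn, rfl⟩ := eqN (f.trans (one_mul _))
      exact fun u => t (by rw [mul_assoc, u, ← mul_assoc, ← NQ z zQ n hn, mul_assoc])
    haveI := Fact.mk Nat.prime_three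
    obtain ⟨t, ht⟩ := exists_prime_orderOf_dvd_card' (G := X) 3 (dvd_trans (by decide) h.dvd)
    have t3 := ht ▸ pow_orderOf_eq_one t
    obtain ⟨v, hv, vP⟩ : ∃ v ∈ d.W ⊓ centralizer {(t : X ⧸ N)}, v ∉ zpowers (z : X ⧸ N) := by
      by_contra! u
      have a := H22.Sr.fixs Nat.prime_three (g := (t : X ⧸ N)) (by rw [← QuotientGroup.mk_pow, t3]; rfl) d.W
        fun a ha => (inferInstance : d.W.Normal).conj_mem a ha _
      rw [le_antisymm (show d.W ⊓ centralizer {(t : X ⧸ N)} ≤ zpowers (z : X ⧸ N) from u) (zpowers_le.2 (mem_inf.2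
        ⟨⟨d.zQ, d.zz⟩, mem_centralizer_singleton_iff.2 (mul_inv_eq_iff_eq_mul.1 (zc t)).symm⟩)), d.card_W zN, Nat.card_zpowers, oz] at a
      exact absurd a (by decide)
    obtain ⟨v, rfl⟩ := QuotientGroup.mk_surjective v
    have vW : v ∈ W := hv.1
    obtain ⟨n, hn, f⟩ := eqN (a := t * v * t⁻¹) (b := v)
      (mul_inv_eq_iff_eq_mul.2 (mem_centralizer_singleton_iff.1 hv.2).symm)
    obtain ⟨n', hn', f'⟩ := zg t
    have a1 : v * v ∈ N ⊓ centralizer {t} := ⟨Wsq v vW, mem_centralizer_singleton_iff.2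
      (mul_inv_eq_iff_eq_mul.1 (by rw [← conj_mul, f, sqN n hn v (WQ vW)])).symm⟩
    have zv := W.mul_mem (PW zP) vW
    have a2 : z * v * (z * v) ∈ N ⊓ centralizer {t} := ⟨Wsq _ zv, mem_centralizer_singleton_iff.2
      (mul_inv_eq_iff_eq_mul.1 (by
        rw [← conj_mul, ← conj_mul, f, f', (show Commute z n from NQ z zQ n hn).mul_mul_mul_comm,
          sqN _ (N.mul_mem hn' hn) _ (WQ zv)])).symm⟩
    have a3 : z * v * (z * v) ≠ v * v := fun u => by
      have u : v * z = z * v := by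
        rw [← zi (a := v * z), ← mul_assoc z v, mul_right_cancel ((mul_assoc _ _ _).trans u)]
      rcases mW.1 vW with k | k
      · exact all v k (fun s => vP (NP s)) u
      · exact all _ k (fun s => vP ((mP v).2 (.inr s))) (by rw [mul_assoc, u])
    have a := H22.Sr.fixs Nat.prime_three t3 N fun a ha => nN.conj_mem a ha t
    have b := card_dvd_of_le (inf_le_left : N ⊓ centralizer {t} ≤ N)
    have b3 : 2 < Set.ncard ((N ⊓ centralizer {t} : Subgroup X) : Set X) := (Set.two_lt_ncard_iff (Set.toFinite _)).2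
      ⟨1, _, _, one_mem _, a1, a2, (W1 v vW vP).symm, (W1 _ zv (by rwa [P.mul_mem_cancel_left zP])).symm, a3.symm⟩
    rw [N8] at a b
    rw [← Nat.card_coe_set_eq] at b3
    have b8 := eq_of_le_of_card_ge (inf_le_left : N ⊓ centralizer {t} ≤ N) (N8.le.trans (ar a b b3))
    have := h.simple
    refine W1 v vW vP (hZ _ (hN a1.1) (H22.Sr.cent_of_simple (A := N) (y := t) h.surj
      (fun q hq n hn => (NQ q hq n hn).symm) (fun k => ?_) (fun n hn => (b8.ge hn).2) a1.1))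
    obtain ⟨j, u⟩ := h.two ⟨t, k⟩
    have := orderOf_dvd_of_pow_eq_one (congrArg Subtype.val u)
    exact absurd (Nat.prime_three.dvd_of_dvd_pow (ht ▸ this)) (by decide)
  have cP : ∀ y ∈ π.ker, y * z = z * y → ∀ p ∈ P, y * p = p * y := fun y hy u p hp => by
    rcases (mP p).1 hp with k | k
    · exact NQ y hy p k
    · rw [← zi (a := p)]; exact (Commute.mul_right u (NQ y hy _ k)).eq
  obtain ⟨cm, pm⟩ := lin co N8 NP (fun p hp => by
      rcases (mP p).1 hp with k | k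
      · exact N2 p k
      · rw [← zi (a := p), (show Commute _ z from (NQ z zQ _ k).symm).mul_mul_mul_comm, zz, N2 _ k, one_mul])
    (fun p hp w hw => (cP w (WQ hw) (zW w hw) p hp).symm) (e ▸ NQ) (fun n hn => hZ n (hN hn)) Wsq W1
  have cW : ∀ w ∈ W, c * w = w * c := by
    refine ((pm c (e ▸ cQ) (fun g => triv W MW g c cQ) (fun w hw => Qc c cQ w (WQ hw))
      (cP c cQ (Commute.self_pow c i))).imp_left fun k w hw => mul_inv_eq_iff_eq_mul.1 (k w hw)).resolve_right fun k => ?_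
    have c2 := hZ (c * c) (mul_mem cQ cQ) (mem_center_iff.2 fun g => mul_inv_eq_iff_eq_mul.1 (by
      have a := k _ (triv W MW g c cQ)
      generalize hw : g * c * g⁻¹ * c⁻¹ = w at a
      rw [← conj_mul, show g * c * g⁻¹ = w * c by rw [← hw]; simp, mul_assoc w c, ← mul_assoc c w,
        mul_inv_eq_iff_eq_mul.1 a]
      group))
    obtain ⟨w, hw, n⟩ := co.onto 1
    have cw : c ∈ W := ⟨(mk c).2 cQ, (one (y := c * c)).2 (c2 ▸ one_mem _)⟩
    have := k w hw
    rw [cm c cw w hw, mul_inv_cancel_right] at this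
    exact W1 w hw (fun u => absurd (n.symm.trans ((co.zero w hw).2 u)) (by decide)) (mul_eq_one_iff_eq_inv.2 this)
  refine pb co zz (fun k => zN (NM k)) N8 mP (e ▸ fun q hq w hw => ?_) N2 Wsq (fun w hw n => ?_)
    fun s hs => hZ s (WQ (PW hs))
  · obtain ⟨m, hm, k, rfl⟩ := gen q hq
    exact (Commute.mul_left (cm m (MW hm) w hw) (Commute.pow_left (cW w hw) k)).eq
  · obtain ⟨g, f⟩ := tr' w hw n
    exact ⟨g, one.1 (by rw [QuotientGroup.mk_mul, f, zW w hw]; simp)⟩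

theorem ar2 {k j : ℕ} (a : 2 ^ k ≡ 2 ^ j [MOD 7]) (b : j < k) (c : k ≤ 4) : (k = 3 ∧ j = 0) ∨ (k = 4 ∧ j = 1) := by
  interval_cases k <;> interval_cases j <;> simp_all [Nat.ModEq]

universe u

theorem idx (n : ℕ) : ∀ {X : Type u} [Group X] [Finite X] {π : X →* G} {x : X}, St π x → Nat.card X = n →
    Nat.card π.ker = Nat.card (π.ker ⊓ centralizer {x} : Subgroup X) ∨
      Nat.card π.ker = 8 * Nat.card (π.ker ⊓ centralizer {x} : Subgroup X) := by
  induction n using Nat.strong_induction_on with | _ n ih => ?_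
  intro X _ _ π x h hn
  by_contra! k
  have step : ∀ (N : Subgroup X) [N.Normal] (hN : N ≤ π.ker), N ≠ ⊥ → ∃ a b,
      a = Nat.card (QuotientGroup.lift N π hN).ker ∧
      b = Nat.card ((QuotientGroup.lift N π hN).ker ⊓ centralizer {(x : X ⧸ N)} : Subgroup _) ∧
      Nat.card π.ker = Nat.card N * a ∧ Nat.card (π.ker ⊓ centralizer {x} : Subgroup X) =
        Nat.card (N ⊓ centralizer {x} : Subgroup X) * b ∧ (a = b ∨ a = 8 * b) := fun N _ hN n0 => by
    obtain ⟨h', -, k1, k2⟩ := h.quot N hN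
    refine ⟨_, _, rfl, rfl, k1 ▸ card_map_mk hN, ?_, ih _ ?_ h' rfl⟩
    · have := H11.card_inf_mul_relIndex N (π.ker ⊓ centralizer {x})
      rw [← inf_assoc, inf_eq_left.2 hN] at this
      rw [← this, k2, ← relIndex_ker, QuotientGroup.ker_mk']
    · have := card_eq_card_quotient_mul_card_subgroup N
      have := (one_lt_card_iff_ne_bot N).2 n0
      have := Nat.card_pos (α := X ⧸ N)
      nlinarith
  have hZ : ∀ s ∈ π.ker, s ∈ center X → s = 1 := fun s hs c => by_contra fun s1 => by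
    have := H22.Sr.normal_of_central (zpowers_le.2 c)
    obtain ⟨a, b, -, -, e1, e2, e3⟩ := step _ (zpowers_le.2 hs) (zpowers_ne_bot.2 s1)
    rw [inf_eq_left.2 (zpowers_le.2 (mem_centralizer_singleton_iff.2 (mem_center_iff.1 c x).symm))] at e2
    rcases e3 with rfl | rfl
    · exact k.1 (e1.trans e2.symm)
    · exact k.2 (by rw [e1, e2]; ring)
  obtain ⟨N, hN, le⟩ := H2.exists_isMinNormal_le (N := π.ker) inferInstance fun e => k.1 (by simp [e])
  have nN := hN.normal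
  have p2 := h.two.to_le le
  have NQ : ∀ q ∈ π.ker, ∀ n ∈ N, q * n = n * q := by
    rcases hN.inf_eq_bot_or_le (centralizer (π.ker : Set X)) with e | e
    · exact (H2.inf_centralizer_ne_bot h.two.isNilpotent le le_normalizer_of_normal hN.ne_bot e).elim
    · exact fun q hq n hn => e hn q hq
  have N2 : ∀ n ∈ N, n * n = 1 := by
    have := p2.isNilpotent
    obtain ⟨-, p, hp, e⟩ := hN.exists_prime_of_isSolvable inferInstance
    obtain ⟨⟨a, ha⟩, a1⟩ := ne_bot_iff_exists_ne_one.1 hN.ne_bot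
    obtain ⟨j, f⟩ := p2 ⟨a, ha⟩
    have := Fact.mk hp
    have := orderOf_dvd_of_pow_eq_one (congrArg Subtype.val f)
    rw [orderOf_eq_prime (e a ha) fun e => a1 (Subtype.ext e)] at this
    obtain rfl := (Nat.prime_dvd_prime_iff_eq hp Nat.prime_two).1 (hp.dvd_of_dvd_pow this)
    exact fun n hn => (pow_two n).symm.trans (e n hn)
  have r := h.sr N le_top ⊥ bot_le N2
  obtain ⟨i, hi⟩ := p2.exists_card_eq
  obtain ⟨j, hj⟩ := (p2.to_le (inf_le_left : N ⊓ centralizer {x} ≤ N)).exists_card_eq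
  have m := H22.Sr.fixs (by decide : Nat.Prime 7) (h.ord ▸ pow_orderOf_eq_one x) N fun a ha => nN.conj_mem a ha x
  have simple := h.simple
  have nc : ¬ N ≤ centralizer {x} := fun e => hN.ne_bot (eq_bot_iff.2 fun n hn => hZ n (le hn)
    (H22.Sr.cent_of_simple h.surj (fun q hq n hn => (NQ q hq n hn).symm) h.nx e hn))
  have lt : Nat.card (N ⊓ centralizer {x} : Subgroup X) < Nat.card N := lt_of_le_of_ne (card_le_of_le inf_le_left)
    fun e => nc (inf_eq_left.1 (eq_of_le_of_card_ge inf_le_left e.ge))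
  rw [relIndex_bot_left, hi] at r
  rw [hi, hj] at m lt
  rcases ar2 m ((Nat.pow_lt_pow_iff_right (by decide)).1 lt) ((Nat.pow_le_pow_iff_right (by decide)).1 r) with
    ⟨rfl, rfl⟩ | ⟨rfl, rfl⟩
  · obtain ⟨a, b, ea, eb, e1, e2, e3⟩ := step N le hN.ne_bot
    rw [hi] at e1
    rw [hj] at e2
    rcases e3 with e3 | e3
    · exact k.2 (by rw [e1, e2, e3]; ring)
    obtain ⟨N0, c, z, d⟩ := (h.quot N le).1.dec (ea ▸ eb ▸ e3)
    exact two h hZ le hi N2 NQ (card_eq_one.1 hj) d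
  · obtain ⟨M, le', M8, sq, inv, bot, cen, sup⟩ := ps p2 h.ord (by rw [hi, hj]; rfl)
    obtain ⟨z, z1, hz⟩ := (Nat.card_eq_two_iff' (1 : (N ⊓ centralizer {x} : Subgroup X))).1 hj
    have zz := N2 z z.2.1
    have mA : ∀ {w}, w ∈ N ↔ w ∈ M ∨ z * w ∈ M := by
      refine @fun w => ⟨fun hw => ?_, fun t => t.elim (@le' w) fun t => (N.mul_mem_cancel_left z.2.1).1 (le' t)⟩
      have : N ⊓ centralizer {x} ≤ normalizer (M : Set X) := fun y hy => mem_normalizer_fintype fun n hn => by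
        rwa [cen y hy.1 n hn, mul_inv_cancel_right]
      rw [← sup, ← SetLike.mem_coe, coe_mul_of_right_le_normalizer_left _ _ this] at hw
      obtain ⟨a, ha, y, hy, rfl⟩ := hw
      by_cases e : (⟨y, hy⟩ : (N ⊓ centralizer {x} : Subgroup X)) = 1
      · exact .inl (by simpa [show y = 1 from congrArg Subtype.val e] using ha)
      · obtain rfl : y = z := congrArg Subtype.val (hz _ e)
        exact .inr (by dsimp only; rwa [← cen _ z.2.1 a ha, ← mul_assoc, zz, one_mul])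
    by_cases n0 : M.Normal
    · rcases hN.min M n0 le' with e | e <;> simp [e, hi] at M8
    · obtain ⟨-, zc, -⟩ := m3 mA zz M8 (fun w hw => NQ _ (le z.2.1) w hw) h sq inv bot
        (mul_inv_eq_iff_eq_mul.2 (mem_centralizer_singleton_iff.1 z.2.2).symm)
        (fun q hq => NQ q hq _ z.2.1) n0
      exact z1 (Subtype.ext (hZ _ (le z.2.1) (mem_center_iff.2 fun g => mul_inv_eq_iff_eq_mul.1 (zc g))))

end Cfsg.Agent.L32
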