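import Cfsg.Agent.L32.F

/-! The structure of the 2-core. -/

set_option autoImplicit false
set_option linter.style.haveILetI false

namespace Cfsg.Agent.L32

open Subgroup

variable {X G : Type*} [Group X] [Group G] [Finite X] {π : X →* G} {x : X}

theorem fin (h : St π x) (hC : centralizer (π.ker : Set X) ≤ π.ker) :
    (IsElementaryAbelian 2 π.ker ∧ (Nat.card π.ker = 8 ∨ Nat.card π.ker = 16)) ∨
      Nonempty (π.ker ≃* Multiplicative (ZMod 4) × (Fin 3 → Multiplicative (ZMod 2))) := by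
  have h8 := (idx _ h rfl).resolve_left fun e => h.nx (hC fun q hq => mem_centralizer_singleton_iff.1
    (inf_eq_left.1 (eq_of_le_of_card_ge inf_le_left e.le) hq))
  obtain ⟨N, c, z, d⟩ := h.dec h8
  rw [d.cyc, Nat.card_zpowers] at h8
  obtain ⟨k, hk⟩ := IsPGroup.iff_orderOf.1 h.two ⟨c, d.cQ⟩
  replace hk : orderOf c = 2 ^ k := (orderOf_coe _).trans hk
  have el : c * c = 1 → IsElementaryAbelian 2 π.ker := fun e =>
    ⟨⟨⟨fun a b => Subtype.ext (d.comm _ a.2 _ b.2)⟩⟩, fun q hq => by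
      obtain ⟨n, hn, j, rfl⟩ := d.gen q hq
      rw [(show Commute n (c ^ j) from (d.cen _ (pow_mem d.cQ j) n hn).symm).mul_pow, pow_two, d.sq n hn, ← pow_mul,
        mul_comm j, pow_mul, pow_two, e, one_pow, one_mul]⟩
  rcases k with _ | _ | _ | n
  · exact .inl ⟨el (by rw [orderOf_eq_one_iff.1 hk, one_mul]), .inl (by rw [h8, hk]; rfl)⟩
  · exact .inl ⟨el (by rw [← pow_two]; exact orderOf_dvd_iff_pow_eq_one.1 (hk ▸ dvd_rfl)), .inr (by rw [h8, hk]; rfl)⟩
  · obtain ⟨e⟩ := e8 (V := N) (fun n => Subtype.ext (d.sq _ n.2)) d.card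
    have cQ := zpowers_le.2 d.cQ
    let f : zpowers c × N →* π.ker := (inclusion cQ).noncommCoprod (inclusion d.le) fun a b =>
      Subtype.ext (d.cen _ (cQ a.2) _ b.2)
    refine .inr ⟨(MulEquiv.ofBijective f ((Nat.bijective_iff_surjective_and_card f).2 ⟨fun q => ?_, ?_⟩)).symm.trans
      ((mulEquivOfCyclicCardEq ?_).prodCongr e)⟩
    · obtain ⟨n, hn, j, e⟩ := d.gen q q.2
      exact ⟨(⟨c ^ j, pow_mem (mem_zpowers c) j⟩, ⟨n, hn⟩), Subtype.ext ((d.cen _ (pow_mem d.cQ j) n hn).trans e.symm)⟩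
    · rw [Nat.card_prod, h8, d.card, Nat.card_zpowers, mul_comm]
    · simp [hk]
  exfalso
  obtain ⟨a, b, u⟩ := uz hk
  obtain rfl : z = c ^ 2 ^ (n + 2) := ((d.uz _ (pow_mem (mem_zpowers c) _) a).resolve_left b).symm
  have zN : c ^ 2 ^ (n + 2) ∉ N := fun k => b (d.nc k d.zc)
  have NW : N ≤ d.W := fun n hn => d.mem_W.2 (.inl hn)
  have WQ : d.W ≤ π.ker := fun w hw => hw.1
  have ht : ∀ g, g * c * g⁻¹ * c⁻¹ ∈ d.W := fun g => mem_Tr.1 (h.top (Tr d.W π.ker)
    (fun a ha => mem_Tr.2 fun b hb => by rw [d.comm a ha b hb]; simp) h.nx (mem_Tr.2 fun q hq => by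
      obtain ⟨m, hm, k, rfl⟩ := d.gen q hq
      rw [← conj_mul, d.xc (pow_mem (mem_zpowers c) k)]
      simpa [mul_assoc] using NW (N.mul_mem (d.inv m hm) (N.inv_mem hm))) g) c d.cQ
  have c2 : c * c ∈ center X := mem_center_iff.2 fun g => mul_inv_eq_iff_eq_mul.1 (by
    have a := ht g
    generalize hw : g * c * g⁻¹ * c⁻¹ = w at a
    rw [← conj_mul, show g * c * g⁻¹ = w * c by rw [← hw]; simp,
      (show Commute c w from d.comm c d.cQ w a.1).mul_mul_mul_comm, a.2, one_mul])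
  have nD := H22.Sr.normal_of_central (zpowers_le.2 (show c ^ 2 ^ (n + 2) ∈ center X by
    rw [pow_succ', pow_mul, pow_two]; exact pow_mem c2 _))
  have DW : zpowers (c ^ 2 ^ (n + 2)) ≤ d.W := zpowers_le.2 ⟨d.zQ, d.zz⟩
  obtain ⟨θ, ρ, co, e⟩ := h.coord DW WQ
    (by rw [d.card_W zN, Nat.card_zpowers, orderOf_eq_prime ((pow_two _).trans a) b])
    (fun w hw => hw.2 ▸ one_mem _) (fun a ha => mem_Tr.2 fun b hb => by rw [d.comm a ha b hb.1]; simp) fun k => by
      have := d.card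
      rw [show N = ⊥ from eq_bot_iff.2 fun m hm => d.bot.le ⟨hm, mem_centralizer_singleton_iff.2
        (mul_inv_eq_iff_eq_mul.1 (mul_inv_eq_one.1 (d.nc (N.mul_mem (d.inv m hm) (N.inv_mem hm))
          (zpowers_le.2 d.zc (mem_Tr.1 k m (NW hm)))))).symm⟩] at this
      simp at this
  refine pa co h.sr (e ▸ d.cQ) (e ▸ d.comm) (e.trans (le_antisymm (fun q hq => ?_) (sup_le WQ (zpowers_le.2 d.cQ))))
    (fun w hw => hw.2) hk rfl (le_antisymm (fun w hw => ?_) (le_inf DW (zpowers_le.2 d.zc))) ht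
  · obtain ⟨m, hm, k, rfl⟩ := d.gen q hq
    exact mul_mem_sup (NW hm) (pow_mem (mem_zpowers c) k)
  · rcases u w hw.2 hw.1.2 with rfl | rfl
    exacts [one_mem _, mem_zpowers _]

end Cfsg.Agent.L32
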