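import Cfsg.Agent.L32.A

/-! Module lemmas for the homocyclic case `Z4 × Z4 × Z4`. -/

set_option autoImplicit false

namespace Cfsg.Agent.L32.PZ

open Matrix

abbrev V := Fin 3 → ZMod 2
/-- The fixed vector. -/
def e0 : V := ![1, 0, 0]
/-- The fixed line. -/
def L (x : V) : Prop := x = 0 ∨ x = e0
instance : DecidablePred L := fun x => inferInstanceAs (Decidable (x = 0 ∨ x = e0))
/-- An element of order three. -/
def T : GL (Fin 3) (ZMod 2) :=
  ⟨!![1, 0, 0; 0, 0, 1; 0, 1, 1], !![1, 0, 0; 0, 1, 1; 0, 1, 0], by decide, by decide⟩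
/-- A transvection. -/
def Ua : GL (Fin 3) (ZMod 2) :=
  ⟨!![1, 0, 1; 0, 1, 0; 0, 0, 1], !![1, 0, 1; 0, 1, 0; 0, 0, 1], by decide, by decide⟩
/-- A second transvection. -/
def Ub : GL (Fin 3) (ZMod 2) :=
  ⟨!![1, 1, 0; 0, 1, 0; 0, 0, 1], !![1, 1, 0; 0, 1, 0; 0, 0, 1], by decide, by decide⟩

theorem vv : ∀ x : V, x + x = 0 := by decide
theorem vneg : ∀ x : V, -x = x := by decide
theorem vsub : ∀ x y : V, x - y = x + y := by decide
theorem d1a : ∀ x : V, L (Ua.1 *ᵥ x + x) := by decide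
theorem d1b : ∀ x : V, L (Ub.1 *ᵥ x + x) := by decide
theorem d2 : ∀ x : V, Ua.1 *ᵥ x = x → Ub.1 *ᵥ x = x → L x := by decide
theorem d3 : ∀ x : V, (Ub * Ua * T).1 *ᵥ x = x → L x := by decide
theorem d5 : ∀ x y : V, Ua.1 *ᵥ x = x → Ua.1 *ᵥ y = y → ¬ L x → ¬ L y → L (x + y) := by decide
theorem d6 : ∀ x : V, ∃ y : V, L (T.1 *ᵥ y + Ua.1 *ᵥ y + x) := by decide
theorem d7 : ∀ x : V, L x → ∃ y : V, Ua.1 *ᵥ y + y = x := by decide
theorem d8 : ∀ x y : V, L x → L y → L (x + y) := by decide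
theorem g1 : T * Ua * T⁻¹ = Ub := Units.ext (by decide)
theorem g2 : Ub⁻¹ * (T * Ub * T⁻¹) = Ua := Units.ext (by decide)
theorem g3 : Ua * Ua = 1 := Units.ext (by decide)
theorem g4 : Ua * Ub * Ua⁻¹ * Ub⁻¹ = 1 := Units.ext (by decide)
theorem g5 : T ^ 3 = 1 := Units.ext (by decide)
theorem g6 : Ua ≠ 1 := fun e => absurd (congrArg Units.val e) (by decide)
theorem g7 : Ub ≠ 1 := fun e => absurd (congrArg Units.val e) (by decide)
theorem g8 : Ua * Ub ≠ 1 := fun e => absurd (congrArg Units.val e) (by decide)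

theorem cen3 {H : Type*} [Group H] {x y w z : H} (h : x * y * w = 1) (hx : x * x = z)
    (hy : y * y = z) (hw : w * w = z) {k : ℕ} (h2 : z ^ 2 ^ k = 1) :
    z * z = 1 ∧ x * y * x⁻¹ * y⁻¹ = z := by
  have cx : x * z = z * x := by rw [← hx, mul_assoc]
  have cy : y * z = z * y := by rw [← hy, mul_assoc]
  have e1 : x * y * (x * y) = z⁻¹ := by
    rw [eq_inv_of_mul_eq_one_left h, ← hw, _root_.mul_inv_rev]
  have ex : x⁻¹ = z⁻¹ * x := by rw [← hx]; group
  have ey : y⁻¹ = y * z⁻¹ := by rw [← hy]; group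
  have cy' : y * z⁻¹ = z⁻¹ * y := (Commute.inv_right cy).eq
  have cx' : x * z⁻¹ = z⁻¹ * x := (Commute.inv_right cx).eq
  have e2 : x * y * x⁻¹ * y⁻¹ = z⁻¹ * z⁻¹ * z⁻¹ := by
    calc x * y * x⁻¹ * y⁻¹ = x * (y * z⁻¹) * x * y * z⁻¹ := by rw [ex, ey]; group
      _ = x * z⁻¹ * y * x * y * z⁻¹ := by rw [cy']; group
      _ = z⁻¹ * (x * y * (x * y)) * z⁻¹ := by rw [cx']; group
      _ = _ := by rw [e1]
  have e3 : x * (x * y * x⁻¹ * y⁻¹) * x⁻¹ * (x * y * x⁻¹ * y⁻¹) = 1 := by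
    calc _ = x * x * y * (x * x)⁻¹ * y⁻¹ := by group
      _ = 1 := by rw [hx, mul_assoc z, cy']; group
  have e4 : (z * z) ^ 3 = 1 := by
    rw [e2, ((Commute.mul_right (Commute.mul_right cx' cx') cx')).eq] at e3
    rw [← inv_eq_one, ← e3]; simp [pow_succ, mul_assoc]
  have e5 : (z * z) ^ 2 ^ k = 1 := by rw [← sq, ← pow_mul, mul_comm, pow_mul, h2, one_pow]
  have e6 : z * z = 1 := orderOf_eq_one_iff.1 (Nat.eq_one_of_dvd_coprimes
    ((by norm_num : Nat.Coprime 3 2).pow_right k) (orderOf_dvd_of_pow_eq_one e4)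
    (orderOf_dvd_of_pow_eq_one e5))
  refine ⟨e6, ?_⟩
  rw [e2, inv_eq_of_mul_eq_one_right e6, e6, one_mul]

/-- Coordinates on a homocyclic group of exponent four. -/
structure Mo {E : Type*} [AddCommGroup E] (r : E →+ V) (v : E) : Prop where
  onto : Function.Surjective r
  s1 : ∀ a, a + a = 0 ↔ r a = 0
  s2 : ∀ a, r a = 0 → ∃ m, a = m + m
  rv : r v = e0

namespace Mo
variable {E : Type*} [AddCommGroup E] {r : E →+ V} {v : E} (h : Mo r v)
include h

theorem sq_eq {a b : E} : a + a = b + b ↔ r a = r b := by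
  rw [← sub_eq_zero, ← sub_eq_zero (a := r a), ← map_sub, ← h.s1]
  rw [show a + a - (b + b) = a - b + (a - b) by abel]

theorem four (a : E) : a + a + (a + a) = 0 := (h.s1 _).2 (by rw [map_add, vv])

theorem v2 : v + v ≠ 0 := fun e => absurd (h.rv.symm.trans ((h.s1 v).1 e)) (by decide)

theorem dbl {m : E} (hm : L (r m)) : m + m = 0 ∨ m + m = v + v :=
  hm.imp (h.s1 m).2 fun e => h.sq_eq.2 (e.trans h.rv.symm)

theorem dblZ {m : E} (hm : L (r m)) : m + m ∈ AddSubgroup.zmultiples v := by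
  rcases h.dbl hm with e | e <;> rw [e]
  exacts [zero_mem _, add_mem (AddSubgroup.mem_zmultiples v) (AddSubgroup.mem_zmultiples v)]

theorem inA {a : E} (ha : L (r a)) : ∃ c ∈ AddSubgroup.zmultiples v, ∃ m, a = c + (m + m) := by
  rcases ha with e | e
  · obtain ⟨m, hm⟩ := h.s2 a e
    exact ⟨0, zero_mem _, m, by rw [zero_add, hm]⟩
  · obtain ⟨m, hm⟩ := h.s2 (a - v) (by rw [map_sub, e, h.rv, sub_self])
    exact ⟨v, AddSubgroup.mem_zmultiples v, m, by rw [← hm]; abel⟩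

theorem halfZ {a : E} (ha : a + a ∈ AddSubgroup.zmultiples v) : L (r a) := by
  have h0 : ∀ j : ℤ, L (r (j • v)) := fun j => by
    rcases Int.even_or_odd' j with ⟨i, rfl | rfl⟩
    · left; rw [mul_smul, two_smul, map_add, vv]
    · right; rw [add_smul, mul_smul, two_smul, map_add, map_add, vv, one_smul, zero_add, h.rv]
  obtain ⟨k, hk⟩ := ha
  have hk' : k • v = a + a := hk
  rcases Int.even_or_odd' k with ⟨i, rfl | rfl⟩
  · rw [mul_smul, two_smul] at hk'
    rw [← h.sq_eq.1 hk']; exact h0 i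
  · have := congrArg r hk'
    rw [add_smul, mul_smul, two_smul, map_add, map_add, vv, one_smul, zero_add, h.rv, map_add,
      vv] at this
    exact absurd this (by decide)

omit h in
theorem fixZ {f : E →+ E} (hf : f v = v) {c : E} (hc : c ∈ AddSubgroup.zmultiples v) : f c = c := by
  obtain ⟨k, rfl⟩ := hc
  show f (k • v) = k • v
  rw [map_zsmul, hf]

theorem m1 {f : E →+ E} (hf : ∀ e, r (f e) = Ua.1 *ᵥ r e) : ¬ ∀ e, f (f e) = -e := by
  intro hh
  obtain ⟨w, hw⟩ := h.onto ![0, 1, 0]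
  obtain ⟨m, hm⟩ := h.s2 (f w - w) (by rw [map_sub, hf, hw]; decide)
  have e1 : f w = w + (m + m) := by rw [← hm]; abel
  have e2 := hh w
  rw [e1, map_add, map_add, e1] at e2
  have e3 : f m + m + (f m + m) = w + w := by
    have := h.four w
    linear_combination (norm := abel) e2 - this
  have := d1a (r m)
  rw [← hf, ← map_add, h.sq_eq.1 e3, hw] at this
  exact absurd this (by decide)

theorem m2 {f : E →+ E} (hf : ∀ e, r (f e) = Ua.1 *ᵥ r e) (ff : ∀ e, f (f e) = e) :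
    f v = v ∨ f v = -v := by
  obtain ⟨w, hw⟩ := h.onto ![0, 0, 1]
  obtain ⟨m, hm⟩ := h.s2 (f w - w - v) (by rw [map_sub, map_sub, hf, hw, h.rv]; decide)
  have e1 : f w = w + v + (m + m) := by rw [← hm]; abel
  have e2 := ff w
  rw [e1, map_add, map_add, map_add, e1] at e2
  have := h.four v
  rcases h.dbl (m := f m + m) (by rw [map_add, hf]; exact d1a _) with e | e
  · right; linear_combination (norm := abel) e2 - e
  · left; linear_combination (norm := abel) e2 - e - this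

theorem m3 {g : E →+ E} {G : Matrix (Fin 3) (Fin 3) (ZMod 2)} (hg : ∀ e, r (g e) = G *ᵥ r e)
    (hG : ∀ x : V, G *ᵥ x = x → L x) (gv : g v = v) {k : E} (hk : g k = k) :
    k ∈ AddSubgroup.zmultiples v := by
  obtain ⟨c, hc, m, rfl⟩ := h.inA (hG _ (by rw [← hg, hk]))
  rw [map_add, fixZ gv hc, add_right_inj, map_add, h.sq_eq, hg] at hk
  exact add_mem hc (h.dblZ (hG _ hk))

theorem m4 {f : E →+ E} (ff : ∀ e, f (f e) = e) (fv : f v = v) {e : E}
    (he : f e - e ∈ AddSubgroup.zmultiples v) : r (f e) = r e := by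
  have e1 := fixZ fv he
  rw [map_sub, ff] at e1
  rw [← sub_eq_zero, ← map_sub, ← h.s1]
  linear_combination (norm := abel) -e1

theorem m5 {f t : E →+ E} (ft : ∀ e, f (t (f (t (f (t e))))) = e) (tt : ∀ e, t (t (t e)) = e)
    (tv : t v = v) : ∃ m, f m + m ∉ AddSubgroup.zmultiples v := by
  by_contra hn
  push Not at hn
  obtain ⟨e, he⟩ := h.onto ![0, 1, 0]
  have h1 := hn (t e)
  have h2 := hn (t (f (t e)))
  have h3 := hn (t (f (t (f (t e)))))
  have e1 := fixZ tv h1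
  have e2 := fixZ tv h1
  have e3 := fixZ tv h2
  rw [← e1] at e2
  simp only [map_add, tt] at e1 e2 e3
  rw [ft] at h3
  have : e + e ∈ AddSubgroup.zmultiples v := by
    convert add_mem (sub_mem h3 h2) h1 using 1
    linear_combination (norm := abel) e1 + e2 - e3
  have := h.halfZ this
  rw [he] at this
  exact absurd this (by decide)

theorem m6 {f : E →+ E} (hf : ∀ e, r (f e) = Ua.1 *ᵥ r e) (fv : f v = v) {a b : E}
    (ha : L (r a)) (hb : L (r b)) (fa : f a = a) (fb : f b = b)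
    (na : a ∉ AddSubgroup.zmultiples v) (nb : b ∉ AddSubgroup.zmultiples v) :
    a + b ∈ AddSubgroup.zmultiples v := by
  obtain ⟨c, hc, m, rfl⟩ := h.inA ha
  obtain ⟨d, hd, n, rfl⟩ := h.inA hb
  rw [map_add, fixZ fv hc, add_right_inj, map_add, h.sq_eq, hf] at fa
  rw [map_add, fixZ fv hd, add_right_inj, map_add, h.sq_eq, hf] at fb
  have := h.dblZ (m := m + n) (by
    rw [map_add]
    exact d5 _ _ fa fb (fun e => na (add_mem hc (h.dblZ e))) fun e => nb (add_mem hd (h.dblZ e)))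
  convert add_mem (add_mem hc hd) this using 1
  abel

theorem m7 {f : E →+ E} {G : Matrix (Fin 3) (Fin 3) (ZMod 2)} (hf : ∀ e, r (f e) = G *ᵥ r e)
    (hG : ∀ x : V, L (G *ᵥ x + x)) (fv : f v = v) {a : E} (ha : L (r a)) :
    f a - a = 0 ∨ f a - a = v + v := by
  obtain ⟨c, hc, m, rfl⟩ := h.inA ha
  have := h.dbl (m := f m - m) (by rw [map_sub, vsub, hf]; exact hG _)
  rw [map_add, fixZ fv hc, map_add]
  rwa [show c + (f m + f m) - (c + (m + m)) = f m - m + (f m - m) by abel]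

theorem m8 {f t : E →+ E} (hf : ∀ e, r (f e) = Ua.1 *ᵥ r e) (ht : ∀ e, r (t e) = T.1 *ᵥ r e)
    (ff : ∀ e, f (f e) = e) (fv : f v = v)
    (ft : ∀ e, f (t (f (t (f (t e))))) = e) (tt : ∀ e, t (t (t e)) = e) (tv : t v = v)
    {z : E} (hz : L (r z)) (fz : f z = z) :
    ∃ m, z + (f (t m - f m) + (t m - f m)) ∈ AddSubgroup.zmultiples v := by
  by_cases h0 : z ∈ AddSubgroup.zmultiples v
  · exact ⟨0, by simpa using h0⟩
  obtain ⟨m0, hm0⟩ := h.m5 ft tt tv
  obtain ⟨y, hy⟩ := d6 (r m0)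
  obtain ⟨m, rfl⟩ := h.onto y
  refine ⟨m, h.m6 hf fv hz (by rw [map_add, hf]; exact d1a _) fz
    (by rw [map_add, ff, add_comm]) h0 fun e => hm0 ?_⟩
  have ha : L (r (t m - f m - m0)) := by rwa [map_sub, map_sub, vsub, vsub, ht, hf]
  have h1 : f (t m - f m - m0) - (t m - f m - m0) ∈ AddSubgroup.zmultiples v := by
    rcases h.m7 hf d1a fv ha with e | e <;> rw [e]
    exacts [zero_mem _, add_mem (AddSubgroup.mem_zmultiples v) (AddSubgroup.mem_zmultiples v)]
  convert sub_mem (sub_mem e h1) (h.dblZ ha) using 1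
  rw [map_sub f _ m0]
  abel

end Mo

end Cfsg.Agent.L32.PZ
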